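import Mathlib
import Cfsg.Prelude.Def_GeometricClasses

/-!
Groups of symplectic type of order `2 ^ 5` in `GL_4`.
-/

set_option autoImplicit false

namespace CfsgLib.HeisSp

open Matrix Subgroup
open scoped commutatorElement

/-- A group of order 32 of exponent four, with centre of order two and cyclic characteristic abelian subgroups, has class two. -/
theorem class_two {G : Type*} [Group G] [Finite G] (hp : IsPGroup 2 G) (hexp : Monoid.exponent G = 4)
    (hcyc : ∀ A : Subgroup G, A.Characteristic → IsMulCommutative A → IsCyclic A)
    (hcard : Nat.card G = 32) (hZ : Nat.card (center G) = 2) : ∀ u v : G, ⁅u, v⁆ ∈ center G := by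
  haveI : Fact (Nat.Prime 2) := ⟨Nat.prime_two⟩
  have hfour : ∀ g : G, g ^ 4 = 1 := fun g => by
    have h := Monoid.pow_exponent_eq_one g
    rwa [hexp] at h
  have hchar4 : ∀ A : Subgroup G, A.Characteristic → IsMulCommutative A → IsCyclic A ∧ Nat.card A ∣ 4 := by
    intro A hA hc
    haveI := hcyc A hA hc
    refine ⟨inferInstance, ?_⟩
    rw [← IsCyclic.exponent_eq_card, ← hexp]
    exact Monoid.exponent_dvd_of_monoidHom A.subtype (Subgroup.subtype_injective _)
  have hcom : ∀ u v : G, ⁅u, v⁆ ∈ center G := by
    haveI : Group.IsNilpotent G := hp.isNilpotent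
    obtain ⟨n, hn⟩ := Subgroup.nilpotent_iff_lowerCentralSeries.1 (inferInstance : Group.IsNilpotent G)
    classical
    have hex : ∃ m, (⊤ : Subgroup G).lowerCentralSeries (m + 1) ≤ center G :=
      ⟨n, le_trans (Subgroup.lowerCentralSeries_antitone _ (Nat.le_succ n)) (by rw [hn]; exact bot_le)⟩
    intro u v
    rcases Nat.eq_zero_or_pos (Nat.find hex) with h0 | hpos
    · have h := Nat.find_spec hex
      rw [h0] at h
      refine h ?_
      rw [zero_add, Subgroup.top_lowerCentralSeries_one]
      exact Subgroup.commutator_mem_commutator (mem_top u) (mem_top v)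
    · exfalso
      set k := Nat.find hex with hk
      have hkk : (⊤ : Subgroup G).lowerCentralSeries (k + 1) ≤ center G := Nat.find_spec hex
      have hle1 : (⊤ : Subgroup G).lowerCentralSeries k ≤ commutator G := by
        rw [← Subgroup.top_lowerCentralSeries_one]
        exact Subgroup.lowerCentralSeries_antitone _ hpos
      have hfix : ∀ w ∈ (⊤ : Subgroup G).lowerCentralSeries k, commutator G ≤ centralizer {w} := by
        intro w hw
        rw [_root_.commutator_def, Subgroup.commutator_le]
        intro a _ b _
        rw [mem_centralizer_singleton_iff]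
        have hz : ∀ g, ⁅w, g⁆ ∈ center G := fun g => hkk (by
          rw [Subgroup.lowerCentralSeries_succ]
          exact Subgroup.commutator_mem_commutator hw (mem_top g))
        have e : ∀ z g h : G, z ∈ center G → ⁅z * g, h⁆ = ⁅g, h⁆ := fun z g h hz => by
          rw [mem_center_iff] at hz
          calc ⁅z * g, h⁆ = (z * (g * h * g⁻¹)) * z⁻¹ * h⁻¹ := by rw [commutatorElement_def]; group
            _ = ((g * h * g⁻¹) * z) * z⁻¹ * h⁻¹ := by rw [← hz (g * h * g⁻¹)]
            _ = ⁅g, h⁆ := by rw [commutatorElement_def]; group
        have e2 : ∀ z g h : G, z ∈ center G → ⁅g, z * h⁆ = ⁅g, h⁆ := fun z g h hz => by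
          rw [← commutatorElement_inv (z * h) g, e z h g hz, commutatorElement_inv]
        have hconj : w * ⁅a, b⁆ * w⁻¹ = ⁅a, b⁆ := by
          rw [conjugate_commutatorElement, show w * a * w⁻¹ = ⁅w, a⁆ * a by rw [commutatorElement_def]; group,
            show w * b * w⁻¹ = ⁅w, b⁆ * b by rw [commutatorElement_def]; group, e _ _ _ (hz a), e2 _ _ _ (hz b)]
        exact (mul_inv_eq_iff_eq_mul.1 hconj).symm
      set L := (⊤ : Subgroup G).lowerCentralSeries k with hL
      have hLc : ∀ a ∈ L, ∀ b ∈ L, a * b = b * a := fun a ha b hb =>
        (mem_centralizer_singleton_iff.1 (hfix b hb (hle1 ha)))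
      have hLZ : ¬ L ≤ center G := fun hcen =>
        Nat.find_min hex (show k - 1 < k by omega) (by rwa [Nat.sub_add_cancel hpos])
      haveI hLn : L.Normal := inferInstance
      obtain ⟨hLcyc, hL4⟩ := hchar4 L inferInstance ⟨⟨fun x y => Subtype.ext (hLc x x.2 y y.2)⟩⟩
      have hL2 : 2 < Nat.card L := by
        by_contra hle
        refine hLZ fun a ha => mem_center_iff.2 fun g => ?_
        by_cases ha1 : a = 1
        · simp [ha1]
        have hc : g * a * g⁻¹ ∈ L := hLn.conj_mem a ha g
        by_contra hne
        let f : Fin 3 → L := ![⟨1, L.one_mem⟩, ⟨a, ha⟩, ⟨g * a * g⁻¹, hc⟩]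
        have hf : Function.Injective f := by
          have e1 : g * a * g⁻¹ ≠ 1 := fun h => ha1 (conj_eq_one_iff.1 h)
          have e2 : g * a * g⁻¹ ≠ a := fun h => hne (mul_inv_eq_iff_eq_mul.1 h)
          intro i j h
          have h' := congrArg Subtype.val h
          fin_cases i <;> fin_cases j <;> simp [f] at h' <;> first | rfl | contradiction | exact absurd h'.symm ha1 | exact absurd h'.symm e1 | exact absurd h'.symm e2
        have := Nat.card_le_card_of_injective f hf
        rw [Nat.card_fin] at this
        omega
      have hLcard : Nat.card L = 4 := by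
        have := Nat.le_of_dvd (by norm_num) hL4
        rcases hL4 with ⟨c, hc⟩
        have : c ≤ 1 := by nlinarith
        interval_cases c <;> omega
      obtain ⟨⟨w, hw⟩, hgen⟩ := hLcyc.exists_generator
      have hwo : orderOf w = 4 := by
        rw [← hLcard, ← orderOf_eq_card_of_forall_mem_zpowers hgen, Subgroup.orderOf_mk]
      have hw2 : w * w ≠ 1 := fun h => by
        have := orderOf_dvd_of_pow_eq_one (x := w) (n := 2) (by rw [sq, h])
        rw [hwo] at this
        norm_num at this
      -- the centraliser of `L`
      set C := centralizer (L : Set G) with hC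
      haveI hCchar : C.Characteristic := Subgroup.characteristic_centralizer
      have hwC : w ∈ C := mem_centralizer_iff.2 fun a ha => hLc a ha w hw
      have hmemC : ∀ u, u * w = w * u → u ∈ C := fun u hu => mem_centralizer_iff.2 fun a ha => by
        obtain ⟨n, hn⟩ := mem_zpowers_iff.1 (hgen ⟨a, ha⟩)
        have : a = w ^ n := by simpa using (congrArg Subtype.val hn).symm
        rw [this]
        exact ((show Commute u w from hu).zpow_right n).symm.eq
      have hG'C : commutator G ≤ C := (hfix w hw).trans fun u hu => hmemC u (mem_centralizer_singleton_iff.1 hu)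
      have hmem4 : ∀ a ∈ L, a = 1 ∨ a = w ∨ a = w * w ∨ a = w * w * w := by
        intro a ha
        obtain ⟨n, hn⟩ := mem_zpowers_iff.1 (hgen ⟨a, ha⟩)
        have : a = w ^ n := by simpa using (congrArg Subtype.val hn).symm
        rw [this, ← zpow_mod_orderOf, hwo]
        have h0 := Int.emod_nonneg n (show (4 : ℤ) ≠ 0 by norm_num)
        have h4 := Int.emod_lt_of_pos n (show (0 : ℤ) < 4 by norm_num)
        push_cast
        rcases (show n % 4 = 0 ∨ n % 4 = 1 ∨ n % 4 = 2 ∨ n % 4 = 3 by omega) with h | h | h | h <;> rw [h]
        · simp
        · simp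
        · right; right; left; rw [show (2 : ℤ) = ((2 : ℕ) : ℤ) by norm_num, zpow_natCast, sq]
        · right; right; right; rw [show (3 : ℤ) = ((3 : ℕ) : ℤ) by norm_num, zpow_natCast, pow_succ, sq]
      obtain ⟨v₀, hv₀⟩ : ∃ v, v * w ≠ w * v := by
        by_contra hno
        push Not at hno
        refine hLZ fun a ha => mem_center_iff.2 fun g => ?_
        rcases hmem4 a ha with rfl | rfl | rfl | rfl
        · simp
        · exact hno g
        · exact ((show Commute g w from hno g).mul_right (hno g)).eq
        · exact (((show Commute g w from hno g).mul_right (hno g)).mul_right (hno g)).eq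
      have hv₀C : v₀ ∉ C := fun h => hv₀ (mem_centralizer_iff.1 h w hw).symm
      have hflip : ∀ v, v ∉ C → v * w * v⁻¹ = w * w * w := by
        intro v hv
        rcases hmem4 _ (hLn.conj_mem w hw v) with h | h | h | h
        · exact absurd (conj_eq_one_iff.1 h) (fun e => hw2 (by rw [e, one_mul]))
        · exact absurd (hmemC v (mul_inv_eq_iff_eq_mul.1 h)) hv
        · exfalso
          have h' := congrArg (fun g => g * g) h
          have h4 : w * w * (w * w) = 1 := by
            have := hfour w
            rwa [show w * w * (w * w) = w ^ 4 by simp only [pow_succ, pow_zero, one_mul, mul_assoc]]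
          rw [h4, show v * w * v⁻¹ * (v * w * v⁻¹) = v * (w * w) * v⁻¹ by group, conj_eq_one_iff] at h'
          exact hw2 h'
        · exact h
      have hidx : C.index = 2 := by
        refine Subgroup.index_eq_two_iff.2 ⟨v₀, fun b => ?_⟩
        by_cases hb : b ∈ C
        · exact Or.inr ⟨hb, fun h => hv₀C ((mul_mem_cancel_left hb).1 h)⟩
        · refine Or.inl ⟨hmemC _ ?_, hb⟩
          have h1 : v₀ * w * v₀⁻¹ = w * w * w := hflip v₀ hv₀C
          have h3 : b * w * b⁻¹ = w * w * w := hflip b hb
          have hw4 : w * w * w * (w * w * w) * (w * w * w) = w := by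
            rw [show w * w * w * (w * w * w) * (w * w * w) = w ^ 4 * w ^ 4 * w by simp only [pow_succ, pow_zero, one_mul, mul_assoc], hfour, one_mul, one_mul]
          have key : b * v₀ * w * (b * v₀)⁻¹ = w := by
            calc b * v₀ * w * (b * v₀)⁻¹ = b * (v₀ * w * v₀⁻¹) * b⁻¹ := by group
              _ = (b * w * b⁻¹) * (b * w * b⁻¹) * (b * w * b⁻¹) := by rw [h1]; group
              _ = w := by rw [h3, hw4]
          exact mul_inv_eq_iff_eq_mul.1 key
      have hC16 : Nat.card C = 16 := by
        have := C.index_mul_card
        rw [hidx, hcard] at this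
        omega
      -- the commutator subgroup is `L`
      obtain ⟨M, hMc, hvM⟩ := Sylow.exists_subgroup_card_pow_prime_le (G := G) (p := 2) (n := (Nat.log 2 (Nat.card (zpowers v₀))))
        (m := 4) (by rw [hcard]; norm_num) (zpowers v₀) (by
          obtain ⟨j, hj⟩ := hp.to_subgroup (zpowers v₀) |>.exists_card_eq
          rw [hj, Nat.log_pow (by norm_num)]) (by
          have h4 : Nat.card (zpowers v₀) ∣ 4 := by rw [Nat.card_zpowers]; exact orderOf_dvd_of_pow_eq_one (hfour v₀)
          have := Nat.log_mono_right (b := 2) (Nat.le_of_dvd (by norm_num) h4)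
          rw [show Nat.log 2 4 = 2 from Nat.log_pow (by norm_num) 2] at this
          omega)
      have hMidx : M.index = 2 := by
        have := M.index_mul_card
        rw [hMc, hcard] at this
        omega
      have hG'M : commutator G ≤ M := by
        rw [_root_.commutator_def, Subgroup.commutator_le]
        intro a _ b _
        simp only [commutatorElement_def, mul_mem_iff_of_index_two hMidx, inv_mem_iff]
        tauto
      have hD : ∀ a ∈ C ⊓ M, ∀ b ∈ C ⊓ M, a * b = b * a := by
        have hlt : Nat.card (C ⊓ M : Subgroup G) ∣ 16 ∧ Nat.card (C ⊓ M : Subgroup G) ≠ 16 := by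
          refine ⟨hC16 ▸ Subgroup.card_dvd_of_le inf_le_left, fun h => ?_⟩
          have e1 := Subgroup.eq_of_le_of_card_ge (inf_le_left : C ⊓ M ≤ C) (by rw [h, hC16])
          have e2 := Subgroup.eq_of_le_of_card_ge (inf_le_right : C ⊓ M ≤ M) (by rw [h, hMc]; norm_num)
          exact hv₀C (by rw [← e1, e2]; exact hvM (mem_zpowers v₀))
        haveI : Group.IsNilpotent G := hp.isNilpotent
        set D := C ⊓ M
        let W : Subgroup D := L.subgroupOf D
        have hWle : W ≤ center D := fun a ha => mem_center_iff.2 fun b => Subtype.ext
          (mem_centralizer_iff.1 (inf_le_left (b := M) b.2 : (b : G) ∈ C) _ (mem_subgroupOf.1 ha)).symm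
        have hW4 : Nat.card W = 4 := by
          rw [Nat.card_congr (Subgroup.subgroupOfEquivOfLe (show L ≤ D from le_inf (fun a ha => by
            rcases hmem4 a ha with rfl | rfl | rfl | rfl
            exacts [C.one_mem, hwC, C.mul_mem hwC hwC, C.mul_mem (C.mul_mem hwC hwC) hwC])
            (fun a ha => hG'M (hle1 ha)))).toEquiv]
          exact hLcard
        intro a ha b hb
        have hdvd := Subgroup.card_dvd_of_le hWle
        rw [hW4] at hdvd
        have hcz : Nat.card (center D) ∣ Nat.card D := card_subgroup_dvd_card _
        have hDle : Nat.card D ≤ 8 := by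
          rcases hlt with ⟨h1, h2⟩
          have := Nat.le_of_dvd (by norm_num) h1
          by_contra hh
          have h16 : Nat.card D ∈ Nat.divisors 16 := Nat.mem_divisors.2 ⟨h1, by norm_num⟩
          rw [show Nat.divisors 16 = {1, 2, 4, 8, 16} by decide] at h16
          simp only [Finset.mem_insert, Finset.mem_singleton] at h16
          omega
        haveI : IsCyclic (D ⧸ center D) := by
          have h := (center D).card_eq_card_quotient_mul_card_subgroup
          have h4le : 4 ≤ Nat.card (center D) := Nat.le_of_dvd Nat.card_pos hdvd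
          have hq : Nat.card (D ⧸ center D) ≤ 2 := by nlinarith
          have hpos : 0 < Nat.card (D ⧸ center D) := Nat.card_pos
          rcases (show Nat.card (D ⧸ center D) = 1 ∨ Nat.card (D ⧸ center D) = 2 by omega) with h1 | h1
          · haveI := (Nat.card_eq_one_iff_unique.1 h1).1
            exact isCyclic_of_subsingleton
          · exact isCyclic_of_prime_card h1
        exact congrArg Subtype.val (commutative_of_cyclic_center_quotient (QuotientGroup.mk' (center D))
          (by rw [QuotientGroup.ker_mk']) (⟨a, ha⟩ : D) ⟨b, hb⟩)
      have hG'L : ∀ a b : G, ⁅a, b⁆ ∈ L := by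
        obtain ⟨-, h4⟩ := hchar4 (commutator G) inferInstance ⟨⟨fun x y => Subtype.ext
          (hD x ⟨hG'C x.2, hG'M x.2⟩ y ⟨hG'C y.2, hG'M y.2⟩)⟩⟩
        have hle : L ≤ commutator G := hle1
        have := Subgroup.eq_of_le_of_card_ge hle (by rw [hLcard]; exact Nat.le_of_dvd (by norm_num) h4)
        intro a b
        rw [this]
        exact Subgroup.commutator_mem_commutator (mem_top a) (mem_top b)
      -- squares in the centraliser
      have hsqC : ∀ u ∈ C, u * u ∈ L := by
        intro u hu
        obtain ⟨hcyc', h4⟩ := hchar4 ((center C).map C.subtype) inferInstance ⟨⟨fun x y => Subtype.ext (by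
          obtain ⟨a, ha, hae⟩ := mem_map.1 x.2
          show (x : G) * y = y * x
          obtain ⟨b, hb, hbe⟩ := mem_map.1 y.2
          rw [← hae, ← hbe, ← map_mul, ← map_mul, mem_center_iff.1 ha b])⟩⟩
        have hLZC : L ≤ (center C).map C.subtype := fun a ha => by
          have haC : a ∈ C := by
            rcases hmem4 a ha with rfl | rfl | rfl | rfl
            exacts [C.one_mem, hwC, C.mul_mem hwC hwC, C.mul_mem (C.mul_mem hwC hwC) hwC]
          exact mem_map.2 ⟨⟨a, haC⟩, mem_center_iff.2 fun b => Subtype.ext (mem_centralizer_iff.1 b.2 a ha).symm, rfl⟩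
        have hLe := Subgroup.eq_of_le_of_card_ge hLZC (by rw [hLcard]; exact Nat.le_of_dvd (by norm_num) h4)
        have hzc : Nat.card (center C) = 4 := by
          rw [← hLcard, hLe, Subgroup.card_map_of_injective (Subgroup.subtype_injective _)]
        have hq : Nat.card (C ⧸ center C) = 4 := by
          have h := (center C).card_eq_card_quotient_mul_card_subgroup
          rw [hC16, hzc] at h
          omega
        have hnc : ¬ IsCyclic (C ⧸ center C) := fun h => by
          haveI := h
          have hab : ∀ a b : C, a * b = b * a := commutative_of_cyclic_center_quotient (QuotientGroup.mk' (center C))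
            (by rw [QuotientGroup.ker_mk'])
          have : center C = ⊤ := eq_top_iff.2 fun a _ => mem_center_iff.2 fun b => hab b a
          rw [this, Nat.card_congr Subgroup.topEquiv.toEquiv, hC16] at hzc
          omega
        have h2 : ∀ z : C ⧸ center C, z ^ 2 = 1 := fun z => by
          have hd := orderOf_dvd_natCard z
          rw [hq] at hd
          have h3 : orderOf z ≠ 4 := fun h => hnc (isCyclic_of_orderOf_eq_card z (h.trans hq.symm))
          have : orderOf z ∈ Nat.divisors 4 := Nat.mem_divisors.2 ⟨hd, by norm_num⟩
          rw [show Nat.divisors 4 = {1, 2, 4} by decide] at this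
          simp [h3] at this
          rcases this with h | h
          · simp [h]
          · rw [← h, pow_orderOf_eq_one]
        have hu2 := h2 (QuotientGroup.mk' (center C) ⟨u, hu⟩)
        rw [← map_pow, QuotientGroup.mk'_apply, QuotientGroup.eq_one_iff] at hu2
        rw [hLe]
        exact mem_map.2 ⟨_, hu2, by simp [sq]⟩
      -- commutators with the centraliser are central
      have hkey : ∀ u ∈ C, ∀ v : G, ⁅v, u⁆ = 1 ∨ ⁅v, u⁆ = w * w := by
        intro u hu v
        set e := ⁅v, u⁆ with he
        have hconj : v * u * v⁻¹ = e * u := by rw [he, commutatorElement_def]; group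
        have hu2 : u * u = 1 ∨ u * u = w * w := by
          have h4 := hfour u
          rw [show u ^ 4 = (u * u) * (u * u) by simp only [pow_succ, pow_zero, one_mul, mul_assoc]] at h4
          have hw6 : w * w * w * (w * w * w) = w * w := by
            rw [show w * w * w * (w * w * w) = w ^ 4 * (w * w) by simp only [pow_succ, pow_zero, one_mul, mul_assoc], hfour, one_mul]
          rcases hmem4 _ (hsqC u hu) with h | h | h | h
          · exact Or.inl h
          · rw [h] at h4; exact absurd h4 hw2
          · exact Or.inr h
          · rw [h, hw6] at h4; exact absurd h4 hw2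
        have heL := hG'L v u
        rw [← he] at heL
        have hue : u * e = e * u := (mem_centralizer_iff.1 hu e heL).symm
        have hsq : v * (u * u) * v⁻¹ = u * u := by
          have hcm : ∀ g, g * (w * w) = w * w * g := fun g => by
            by_cases hg : g ∈ C
            · exact (mem_centralizer_iff.1 hg _ (L.mul_mem hw hw)).symm
            · refine mul_inv_eq_iff_eq_mul.1 ?_
              rw [show g * (w * w) * g⁻¹ = (g * w * g⁻¹) * (g * w * g⁻¹) by group, hflip g hg,
                show w * w * w * (w * w * w) = w ^ 4 * (w * w) by simp only [pow_succ, pow_zero, one_mul, mul_assoc], hfour, one_mul]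
          rcases hu2 with h | h <;> rw [h]
          · group
          · rw [hcm v, mul_inv_cancel_right]
        have he2 : e * e = 1 := by
          have h1 : v * (u * u) * v⁻¹ = (e * u) * (e * u) := by rw [← hconj]; group
          rw [hsq, show e * u * (e * u) = e * (u * e) * u by group, hue,
            show e * (e * u) * u = e * e * (u * u) by group] at h1
          exact right_eq_mul.1 h1
        rcases hmem4 e heL with h | h | h | h
        · exact Or.inl h
        · rw [h] at he2; exact absurd he2 hw2
        · exact Or.inr h
        · rw [h, show w * w * w * (w * w * w) = w ^ 4 * (w * w) by simp only [pow_succ, pow_zero, one_mul, mul_assoc], hfour, one_mul] at he2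
          exact absurd he2 hw2
      -- all commutators are trivial or `w * w`, a contradiction
      have hall : ∀ a b : G, ⁅a, b⁆ = 1 ∨ ⁅a, b⁆ = w * w := by
        have hi : ∀ e : G, e = 1 ∨ e = w * w → e⁻¹ = 1 ∨ e⁻¹ = w * w := by
          rintro e (rfl | rfl)
          · exact Or.inl inv_one
          · right
            rw [inv_eq_iff_mul_eq_one, show w * w * (w * w) = w ^ 4 by simp only [pow_succ, pow_zero, one_mul, mul_assoc], hfour]
        intro a b
        by_cases hb : b ∈ C
        · exact hkey b hb a
        by_cases ha : a ∈ C
        · rw [← commutatorElement_inv b a]; exact hi _ (hkey a ha b)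
        · have hc : a⁻¹ * b ∈ C := (mul_mem_iff_of_index_two hidx).2 (by simp [ha, hb])
          have e : ⁅a, b⁆ = a * ⁅a, a⁻¹ * b⁆ * a⁻¹ := by simp only [commutatorElement_def]; group
          rw [e]
          rcases hkey _ hc a with h | h <;> rw [h]
          · left; group
          · right
            rw [show a * (w * w) * a⁻¹ = (a * w * a⁻¹) * (a * w * a⁻¹) by group, hflip a ha,
              show w * w * w * (w * w * w) = w ^ 4 * (w * w) by simp only [pow_succ, pow_zero, one_mul, mul_assoc], hfour, one_mul]
      have hwG : w ∈ commutator G := hle1 hw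
      let W2 : Subgroup G :=
        { carrier := {g | g = 1 ∨ g = w * w}
          one_mem' := Or.inl rfl
          mul_mem' := by
            rintro a b (rfl | rfl) (rfl | rfl)
            · exact Or.inl (one_mul _)
            · exact Or.inr (one_mul _)
            · exact Or.inr (mul_one _)
            · left; rw [show w * w * (w * w) = w ^ 4 by simp only [pow_succ, pow_zero, one_mul, mul_assoc], hfour]
          inv_mem' := by
            rintro a (rfl | rfl)
            · exact Or.inl inv_one
            · right; rw [inv_eq_iff_mul_eq_one, show w * w * (w * w) = w ^ 4 by simp only [pow_succ, pow_zero, one_mul, mul_assoc], hfour] }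
      have hle : commutator G ≤ W2 := by
        rw [_root_.commutator_def, Subgroup.commutator_le]
        exact fun a _ b _ => hall a b
      rcases hle hwG with h | h
      · exact hw2 (by rw [h, one_mul])
      · exact hw2 (by rw [← left_eq_mul.1 h.symm.symm]; simp [left_eq_mul.1 h])
  exact hcom

end CfsgLib.HeisSp
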