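import Cfsg.Agent.HeisSp.Five
import Cfsg.Agent.GeoLib.SpGL

/-!
Classes of elements of order two, four and five in `Sp_4`.
-/

set_option autoImplicit false

namespace CfsgLib.HeisSp

open Matrix Module

variable {F : Type*} [Field F]

local notation "M4" => Matrix (Fin 2 ⊕ Fin 2) (Fin 2 ⊕ Fin 2) F
local notation "G4" => GL (Fin 2 ⊕ Fin 2) F
local notation "V4" => (Fin 2 ⊕ Fin 2 → F)
local notation "f4" => Cfsg.sympForm 2 F

/-- A symplectic matrix with prescribed columns, and the matrix of a map in these columns. -/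
theorem frame_conj {e : Fin 2 ⊕ Fin 2 → V4}
    (he : ∀ i j, f4 (e i) (e j) = f4 (Pi.single i 1) (Pi.single j 1)) {x : G4} {D : M4}
    (hD : ∀ k, (x : M4) *ᵥ e k = ∑ j, D j k • e j) :
    ∃ P ∈ Cfsg.spGL 2 F, (x : M4) * (P : M4) = (P : M4) * D := by
  let M : M4 := Matrix.of fun r k => e k r
  have hM : ∀ u, M *ᵥ u = ∑ k, u k • e k := fun u => by
    funext r
    simp only [Matrix.mulVec, dotProduct, M, Matrix.of_apply, Finset.sum_apply, Pi.smul_apply, smul_eq_mul]
    exact Finset.sum_congr rfl fun k _ => mul_comm _ _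
  have hform : ∀ u v : V4, f4 (M *ᵥ u) (M *ᵥ v) = f4 u v := fun u v => by
    have hu : ∀ w : V4, w = ∑ k, w k • Pi.single k 1 := fun w => by
      funext r
      simp [Finset.sum_apply, Pi.single_apply]
    rw [hM, hM]
    conv_rhs => rw [hu u, hu v]
    simp only [Fintype.sum_sum_type, Fin.sum_univ_two, SpGeom.form_add_left, SpGeom.form_add_right,
      SpGeom.form_smul_left, SpGeom.form_smul_right, he]
  have hdet : M.det ≠ 0 := by
    intro h
    obtain ⟨u, hu, hu0⟩ := Matrix.exists_mulVec_eq_zero_iff.2 h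
    exact hu (SpGeom.ext_form fun v => by rw [← hform u v, hu0, SpGeom.form_zero_left, SpGeom.form_zero_left])
  refine ⟨Matrix.GeneralLinearGroup.mkOfDetNeZero M hdet, GeoSp.mem_spGL.2 hform, ?_⟩
  refine Matrix.ext_of_mulVec_single fun k => ?_
  show ((x : M4) * M) *ᵥ _ = (M * D) *ᵥ _
  rw [← Matrix.mulVec_mulVec, ← Matrix.mulVec_mulVec, hM (D *ᵥ Pi.single k 1), hM (Pi.single k 1)]
  have e1 : ∑ j, (Pi.single k 1 : V4) j • e j = e k := by simp [Pi.single_apply]
  rw [e1, hD]
  exact Finset.sum_congr rfl fun j _ => by rw [Matrix.mulVec_single_one]; rfl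

theorem conj_of_forms {x y : G4} {D : M4} (hx : ∃ P ∈ Cfsg.spGL 2 F, (x : M4) * (P : M4) = (P : M4) * D)
    (hy : ∃ Q ∈ Cfsg.spGL 2 F, (y : M4) * (Q : M4) = (Q : M4) * D) : ∃ g ∈ Cfsg.spGL 2 F, g⁻¹ * x * g = y := by
  obtain ⟨P, hP, hPx⟩ := hx
  obtain ⟨Q, hQ, hQy⟩ := hy
  refine ⟨P * Q⁻¹, mul_mem hP (inv_mem hQ), ?_⟩
  have e : P⁻¹ * x * P = Q⁻¹ * y * Q := Units.ext (by
    simp only [Units.val_mul]
    rw [mul_assoc, hPx, mul_assoc, hQy, ← mul_assoc, ← mul_assoc, ← Units.val_mul, ← Units.val_mul, inv_mul_cancel,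
      inv_mul_cancel])
  calc (P * Q⁻¹)⁻¹ * x * (P * Q⁻¹) = Q * (P⁻¹ * x * P) * Q⁻¹ := by group
    _ = y := by rw [e]; group

/-- The normal form of an involution. -/
theorem involution_form (h2 : (2 : F) ≠ 0) {x : G4} (hx : x ∈ Cfsg.spGL 2 F) (hxx : x * x = 1) (h1 : x ≠ 1)
    (h1' : x ≠ -1) :
    ∃ P ∈ Cfsg.spGL 2 F, (x : M4) * (P : M4) = (P : M4) * Matrix.diagonal (Sum.elim ![1, -1] ![1, -1]) := by
  set M := (x : M4)
  have hMM : ∀ u, M *ᵥ (M *ᵥ u) = u := fun u => by
    rw [Matrix.mulVec_mulVec, ← Units.val_mul, hxx, Units.val_one, Matrix.one_mulVec]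
  have horth : ∀ u v, M *ᵥ u = u → M *ᵥ v = -v → f4 u v = 0 := fun u v hu hv => by
    have h := GeoSp.mem_spGL.1 hx u v
    rw [hu, hv, show -v = (-1 : F) • v from (neg_one_smul F v).symm, SpGeom.form_smul_right] at h
    have h' : (2 : F) * f4 u v = 0 := by linear_combination -h
    exact (mul_eq_zero.1 h').resolve_left h2
  have hpair : ∀ (s : F), s * s = 1 → ∀ u, M *ᵥ u = s • u → u ≠ 0 →
      ∃ w, M *ᵥ w = s • w ∧ f4 u w = -1 := by
    intro s hs u hu hu0
    obtain ⟨z, hz⟩ := SpGeom.exists_form_ne_zero hu0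
    have hsame : f4 u (M *ᵥ z) = s * f4 u z := by
      have h := GeoSp.mem_spGL.1 hx u z
      rw [hu, SpGeom.form_smul_left] at h
      linear_combination s * h - f4 u (M *ᵥ z) * hs
    refine ⟨(-(2 * f4 u z)⁻¹) • (z + s • (M *ᵥ z)), ?_, ?_⟩
    · rw [Matrix.mulVec_smul, Matrix.mulVec_add, Matrix.mulVec_smul, hMM, smul_comm]
      congr 1
      rw [smul_add, smul_smul, hs, one_smul, add_comm]
    · rw [SpGeom.form_smul_right, SpGeom.form_add_right, SpGeom.form_smul_right, hsame]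
      field_simp
      linear_combination -hs
  obtain ⟨z, hz⟩ : ∃ z, M *ᵥ z + z ≠ 0 := by
    by_contra h
    push Not at h
    refine h1' (Units.ext (Matrix.ext_iff_mulVec.2 fun u => ?_))
    rw [Units.val_neg, Units.val_one, Matrix.neg_mulVec, Matrix.one_mulVec]
    exact eq_neg_of_add_eq_zero_left (h u)
  obtain ⟨z', hz'⟩ : ∃ z, M *ᵥ z - z ≠ 0 := by
    by_contra h
    push Not at h
    refine h1 (Units.ext (Matrix.ext_iff_mulVec.2 fun u => ?_))
    rw [Units.val_one, Matrix.one_mulVec]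
    exact sub_eq_zero.1 (h u)
  set a := M *ᵥ z + z
  set b := M *ᵥ z' - z'
  have ha : M *ᵥ a = a := by simp only [a, Matrix.mulVec_add, hMM]; abel
  have hb : M *ᵥ b = -b := by simp only [b, Matrix.mulVec_sub, hMM]; abel
  obtain ⟨a', ha', haa⟩ := hpair 1 (one_mul 1) a (by rw [one_smul, ha]) hz
  obtain ⟨b', hb', hbb⟩ := hpair (-1) (by norm_num) b (by rw [neg_one_smul, hb]) hz'
  rw [one_smul] at ha'
  rw [neg_one_smul] at hb'
  refine frame_conj (e := Sum.elim ![a, b] ![a', b']) ?_ fun k => ?_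
  · have z1 := horth _ _ ha hb; have z2 := horth _ _ ha hb'; have z3 := horth _ _ ha' hb; have z4 := horth _ _ ha' hb'
    have sk : ∀ u v : V4, f4 v u = -f4 u v := fun u v => SpGeom.form_skew u v
    rintro (i | i) (j | j) <;> fin_cases i <;> fin_cases j <;>
      simp [SpGeom.form_self, z1, z2, z3, z4, haa, hbb, sk a a', sk b b', sk a b, sk a b', sk a' b,
        sk a' b', SpGeom.form_single_inl_right, SpGeom.form_single_inr_right]
  · rcases k with k | k <;> fin_cases k <;> simp [Fintype.sum_sum_type, Fin.sum_univ_two, ha, hb, ha', hb', M]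

/-- The normal form of a square root of minus one. -/
theorem root_form [Fintype F] (h2 : (2 : F) ≠ 0) (hodd : Fintype.card F % 2 = 1) {x : G4} (hx : x ∈ Cfsg.spGL 2 F)
    (hxx : x * x = -1) :
    ∃ P ∈ Cfsg.spGL 2 F, (x : M4) * (P : M4) = (P : M4) * Matrix.fromBlocks 0 (-1) 1 0 := by
  classical
  set M := (x : M4)
  have hMM : ∀ u, M *ᵥ (M *ᵥ u) = -u := fun u => by
    rw [Matrix.mulVec_mulVec, ← Units.val_mul, hxx, Units.val_neg, Units.val_one, Matrix.neg_mulVec, Matrix.one_mulVec]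
  have hM := GeoSp.mem_spGL.1 hx
  have negl : ∀ u v : V4, f4 (-u) v = -f4 u v := fun u v => by
    rw [← neg_one_smul F u, SpGeom.form_smul_left, neg_one_mul]
  have negr : ∀ u v : V4, f4 u (-v) = -f4 u v := fun u v => by
    rw [← neg_one_smul F v, SpGeom.form_smul_right, neg_one_mul]
  have hsymm : ∀ u v, f4 u (M *ᵥ v) = f4 v (M *ᵥ u) := fun u v => by
    rw [← hM u (M *ᵥ v), hMM, negr, SpGeom.form_skew v (M *ᵥ u), neg_neg]
  -- scale an anisotropic vector
  have scale : ∀ a, f4 a (M *ᵥ a) ≠ 0 → ∃ s t : F,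
      f4 (s • a + t • (M *ᵥ a)) (M *ᵥ (s • a + t • (M *ᵥ a))) = -1 := by
    intro a ha
    have hc : f4 a (M *ᵥ a) ≠ 0 := ha
    obtain ⟨s, t, hst⟩ := FiniteField.exists_root_sum_quadratic (R := F)
      (f := Polynomial.X ^ 2) (g := Polynomial.X ^ 2 - Polynomial.C (-1 / f4 a (M *ᵥ a)))
      (Polynomial.degree_X_pow 2) (Polynomial.degree_X_pow_sub_C (by norm_num) _) hodd
    simp only [Polynomial.eval_pow, Polynomial.eval_X, Polynomial.eval_sub, Polynomial.eval_C] at hst
    refine ⟨s, t, ?_⟩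
    simp only [Matrix.mulVec_add, Matrix.mulVec_smul, hMM, SpGeom.form_add_left, SpGeom.form_add_right,
      SpGeom.form_smul_left, SpGeom.form_smul_right, negr, SpGeom.form_self]
    rw [SpGeom.form_skew a (M *ᵥ a)]
    field_simp at hst
    linear_combination hst
  -- an anisotropic vector
  obtain ⟨a, ha⟩ : ∃ a, f4 a (M *ᵥ a) ≠ 0 := by
    by_contra h
    push Not at h
    have hz : ∀ u v, f4 u (M *ᵥ v) = 0 := fun u v => by
      have h3 := h (u + v)
      simp only [Matrix.mulVec_add, SpGeom.form_add_left, SpGeom.form_add_right, h u, h v, ← hsymm u v] at h3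
      have h' : (2 : F) * f4 u (M *ᵥ v) = 0 := by linear_combination h3
      exact (mul_eq_zero.1 h').resolve_left h2
    obtain ⟨w, hw⟩ := SpGeom.exists_form_ne_zero (v := (Pi.single (Sum.inl 0) 1 : V4)) (by simp)
    apply hw
    have := hz (Pi.single (Sum.inl 0) 1) (-(M *ᵥ w))
    rwa [Matrix.mulVec_neg, hMM, neg_neg] at this
  obtain ⟨s, t, he⟩ := scale a ha
  set e1 := s • a + t • (M *ᵥ a)
  set f1 := M *ᵥ e1 with hf1
  have hfe : f4 f1 e1 = 1 := by rw [SpGeom.form_skew, he, neg_neg]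
  let π : V4 → V4 := fun u => u + f4 u f1 • e1 - f4 u e1 • f1
  have hπ : ∀ u, f4 (π u) e1 = 0 ∧ f4 (π u) f1 = 0 := fun u => by
    simp only [π, SpGeom.form_sub_left, SpGeom.form_add_left, SpGeom.form_smul_left, he, hfe, SpGeom.form_self]
    constructor <;> ring
  have hinv : ∀ u, f4 u e1 = 0 → f4 u f1 = 0 → f4 (M *ᵥ u) e1 = 0 ∧ f4 (M *ᵥ u) f1 = 0 := fun u h1 h3 => by
    refine ⟨?_, by rw [hf1, hM, h1]⟩
    rw [← hM (M *ᵥ u) e1, hMM, negl, ← hf1, h3, neg_zero]
  obtain ⟨u₀, hu₀⟩ : ∃ u, π u ≠ 0 := by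
    by_contra h
    push Not at h
    have htop : (⊤ : Submodule F V4) ≤ Submodule.span F {e1, f1} := fun u _ => by
      refine Submodule.mem_span_pair.2 ⟨-f4 u f1, f4 u e1, ?_⟩
      have h0 := h u
      simp only [π] at h0
      linear_combination (norm := module) -h0
    have h1 := Submodule.finrank_mono htop
    have h3 : finrank F (Submodule.span F ({e1, f1} : Set V4)) ≤ 2 := by
      refine (finrank_span_le_card _).trans ?_
      simp only [Set.toFinset_insert, Set.toFinset_singleton]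
      exact Finset.card_le_two
    rw [finrank_top, Module.finrank_pi, Fintype.card_sum, Fintype.card_fin] at h1
    omega
  obtain ⟨b, hbW, hb⟩ : ∃ b, (f4 b e1 = 0 ∧ f4 b f1 = 0) ∧ f4 b (M *ᵥ b) ≠ 0 := by
    by_contra h
    push Not at h
    have hq : ∀ w, f4 w e1 = 0 → f4 w f1 = 0 → f4 w (M *ᵥ w) = 0 := fun w a b => h w ⟨a, b⟩
    have hz : ∀ u v, f4 u e1 = 0 → f4 u f1 = 0 → f4 v e1 = 0 → f4 v f1 = 0 → f4 u (M *ᵥ v) = 0 := by
      intro u v a1 a2 b1 b2
      have h3 := hq (u + v) (by rw [SpGeom.form_add_left, a1, b1, add_zero]) (by rw [SpGeom.form_add_left, a2, b2, add_zero])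
      simp only [Matrix.mulVec_add, SpGeom.form_add_left, SpGeom.form_add_right, hq u a1 a2, hq v b1 b2,
        ← hsymm u v] at h3
      have h' : (2 : F) * f4 u (M *ᵥ v) = 0 := by linear_combination h3
      exact (mul_eq_zero.1 h').resolve_left h2
    obtain ⟨p1, p2⟩ := hπ u₀
    refine hu₀ (SpGeom.ext_form fun z => ?_)
    obtain ⟨q1, q2⟩ := hπ z
    obtain ⟨r1, r2⟩ := hinv _ q1 q2
    have h0 := hz (π u₀) (M *ᵥ π z) p1 p2 r1 r2
    rw [hMM, negr, neg_eq_zero] at h0
    have e : z = π z - f4 z f1 • e1 + f4 z e1 • f1 := by simp only [π]; abel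
    rw [SpGeom.form_zero_left, e, SpGeom.form_add_right, SpGeom.form_sub_right, SpGeom.form_smul_right,
      SpGeom.form_smul_right, h0, p1, p2]
    ring
  obtain ⟨s', t', he'⟩ := scale b hb
  set e2 := s' • b + t' • (M *ᵥ b) with he2
  set f2 := M *ᵥ e2 with hf2
  obtain ⟨c1, c2⟩ := hinv b hbW.1 hbW.2
  have d1 : f4 e2 e1 = 0 := by
    rw [he2, SpGeom.form_add_left, SpGeom.form_smul_left, SpGeom.form_smul_left, hbW.1, c1]; ring
  have d2 : f4 e2 f1 = 0 := by
    rw [he2, SpGeom.form_add_left, SpGeom.form_smul_left, SpGeom.form_smul_left, hbW.2, c2]; ring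
  obtain ⟨d3, d4⟩ := hinv e2 d1 d2
  rw [← hf2] at d3 d4
  refine frame_conj (e := Sum.elim ![e1, e2] ![f1, f2]) ?_ fun k => ?_
  · have sk : ∀ u v : V4, f4 v u = -f4 u v := fun u v => SpGeom.form_skew u v
    rintro (i | i) (j | j) <;> fin_cases i <;> fin_cases j <;>
      simp [SpGeom.form_self, he, hfe, he', d1, d2, d3, d4, sk e2 f2, sk e2 e1, sk e2 f1, sk f2 e1,
        sk f2 f1, SpGeom.form_single_inl_right, SpGeom.form_single_inr_right]
  · rcases k with k | k <;> fin_cases k <;>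
      simp [Fintype.sum_sum_type, Fin.sum_univ_two, hMM, hf1, hf2, Matrix.fromBlocks, M]

/-- When `p` has order four modulo five, every element of order five has all others in a conjugate of its group. -/
theorem five_conj [Fintype F] {p : ℕ} [Fact p.Prime] [CharP F p] (hF : Fintype.card F = p)
    (h5 : orderOf (p : ZMod 5) = 4) {x y : G4} (hxS : x ∈ Cfsg.spGL 2 F) (hyS : y ∈ Cfsg.spGL 2 F) (hx : x ^ 5 = 1)
    (hy : y ^ 5 = 1) (hx1 : x ≠ 1) (hy1 : y ≠ 1) :
    ∃ g ∈ Cfsg.spGL 2 F, ∃ k : ℕ, g⁻¹ * x * g = y ^ k := by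
  classical
  haveI : Fact (Nat.Prime 5) := ⟨by norm_num⟩
  set S := Cfsg.spGL 2 F
  have hp5 : p.Coprime 5 := by
    refine (Nat.coprime_primes Fact.out (by norm_num)).2 fun h => ?_
    rw [h, show ((5 : ℕ) : ZMod 5) = 0 from ZMod.natCast_self 5] at h5
    rw [orderOf_eq_zero (fun hf => by
      obtain ⟨n, hn, h1⟩ := isOfFinOrder_iff_pow_eq_one.1 hf
      rw [zero_pow (by omega)] at h1
      exact zero_ne_one h1)] at h5
    omega
  have hirr : Irreducible (Polynomial.cyclotomic 5 F) := by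
    refine Polynomial.irreducible_of_dvd_cyclotomic_of_natDegree (p := p) (f := 1) (n := 5)
      (by rw [hF, pow_one]) hp5 dvd_rfl ?_
    rw [Polynomial.natDegree_cyclotomic, Nat.totient_prime (by norm_num)]
    rw [← orderOf_units, ZMod.coe_unitOfCoprime, pow_one, h5]
  haveI := Fact.mk hirr
  set Φ := Polynomial.cyclotomic 5 F with hΦ
  have hdeg : Φ.natDegree = 4 := by rw [hΦ, Polynomial.natDegree_cyclotomic, Nat.totient_prime (by norm_num)]
  have main : ∀ z : G4, z ^ 5 = 1 → z ≠ 1 → ∃ φ : AdjoinRoot Φ →ₐ[F] M4,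
      Function.Injective φ ∧ ∀ X : M4, X * (z : M4) = (z : M4) * X → ∃ a, φ a = X := by
    intro z hz hz1
    set M := (z : M4)
    obtain ⟨u, hu⟩ : ∃ u, M *ᵥ u ≠ u := by
      by_contra h
      push Not at h
      exact hz1 (Units.ext (Matrix.ext_iff_mulVec.2 fun u => by rw [h, Units.val_one, Matrix.one_mulVec]))
    set w := M *ᵥ u - u with hw
    have hw0 : w ≠ 0 := sub_ne_zero.2 hu
    have hΦw : (Polynomial.aeval M Φ) *ᵥ w = 0 := by
      have h1 : Φ * (Polynomial.X - 1) = Polynomial.X ^ 5 - 1 := Polynomial.cyclotomic_prime_mul_X_sub_one F 5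
      have h3 := congrArg (Polynomial.aeval M) h1
      rw [map_mul, map_sub, map_sub, Polynomial.aeval_X, map_one, map_pow, Polynomial.aeval_X] at h3
      have : (M ^ 5 : M4) = 1 := by rw [← Units.val_pow_eq_pow_val, hz, Units.val_one]
      rw [this, sub_self] at h3
      rw [hw, show M *ᵥ u - u = (M - 1) *ᵥ u by rw [Matrix.sub_mulVec, Matrix.one_mulVec], Matrix.mulVec_mulVec, h3,
        Matrix.zero_mulVec]
    let ev : Polynomial F →ₗ[F] V4 :=
      { toFun := fun f => (Polynomial.aeval M f) *ᵥ w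
        map_add' := fun f g => by rw [map_add, Matrix.add_mulVec]
        map_smul' := fun c f => by rw [map_smul, Matrix.smul_mulVec]; rfl }
    have hann : ∀ f : Polynomial F, ev f = 0 → Φ ∣ f := by
      intro f hf
      by_contra hnd
      obtain ⟨a, b, hab⟩ := (hirr.coprime_iff_not_dvd.2 hnd)
      apply hw0
      have := congrArg (fun g : Polynomial F => (Polynomial.aeval M g) *ᵥ w) hab
      simp only [map_add, map_mul, map_one, Matrix.add_mulVec, ← Matrix.mulVec_mulVec, Matrix.one_mulVec] at this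
      rw [hΦw, show (Polynomial.aeval M f) *ᵥ w = 0 from hf, Matrix.mulVec_zero, Matrix.mulVec_zero, zero_add] at this
      exact this.symm
    have hli : LinearIndependent F fun k : Fin 4 => ev (Polynomial.X ^ (k : ℕ)) := by
      rw [Fintype.linearIndependent_iff]
      intro c hc
      have hd := hann (∑ k : Fin 4, c k • Polynomial.X ^ (k : ℕ)) (by rw [map_sum]; simpa only [map_smul] using hc)
      have h0 : (∑ k : Fin 4, c k • Polynomial.X ^ (k : ℕ) : Polynomial F) = 0 := by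
        refine Polynomial.eq_zero_of_dvd_of_natDegree_lt hd ?_
        rw [hdeg]
        refine Nat.lt_succ_of_le (Polynomial.natDegree_sum_le_of_forall_le _ _ fun k _ => ?_)
        exact (Polynomial.natDegree_smul_le _ _).trans (by rw [Polynomial.natDegree_X_pow]; omega)
      intro k
      have := congrArg (fun f => Polynomial.coeff f (k : ℕ)) h0
      simpa [Polynomial.coeff_X_pow, Fin.val_inj] using this
    have hspan : ∀ v : V4, ∃ f : Polynomial F, ev f = v := fun v => by
      have hv : v ∈ Submodule.span F (Set.range fun k : Fin 4 => ev (Polynomial.X ^ (k : ℕ))) := by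
        rw [hli.span_eq_top_of_card_eq_finrank (by simp [Module.finrank_pi])]; trivial
      have hle : Submodule.span F (Set.range fun k : Fin 4 => ev (Polynomial.X ^ (k : ℕ))) ≤ LinearMap.range ev :=
        Submodule.span_le.2 (by rintro _ ⟨k, rfl⟩; exact LinearMap.mem_range_self ev _)
      exact LinearMap.mem_range.1 (hle hv)
    have hall : Polynomial.aeval M Φ = 0 := by
      refine Matrix.ext_iff_mulVec.2 fun v => ?_
      obtain ⟨f, rfl⟩ := hspan v
      show (Polynomial.aeval M Φ) *ᵥ ((Polynomial.aeval M f) *ᵥ w) = 0 *ᵥ _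
      rw [Matrix.zero_mulVec, Matrix.mulVec_mulVec, ← map_mul, mul_comm, map_mul, ← Matrix.mulVec_mulVec, hΦw,
        Matrix.mulVec_zero]
    let φ : AdjoinRoot Φ →ₐ[F] M4 := Ideal.Quotient.liftₐ (Ideal.span {Φ}) (Polynomial.aeval M) (fun g hg => by
      obtain ⟨c, rfl⟩ := Ideal.mem_span_singleton.1 hg
      rw [map_mul, hall, zero_mul])
    refine ⟨φ, RingHom.injective φ.toRingHom, fun X hX => ?_⟩
    obtain ⟨f, hf⟩ := hspan (X *ᵥ w)
    refine ⟨AdjoinRoot.mk Φ f, ?_⟩
    show Polynomial.aeval M f = X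
    have hcomm : ∀ g : Polynomial F, X * Polynomial.aeval M g = Polynomial.aeval M g * X := by
      intro g
      induction g using Polynomial.induction_on' with
      | add a b ha hb => rw [map_add, mul_add, add_mul, ha, hb]
      | monomial n c =>
        rw [Polynomial.aeval_monomial, ← mul_assoc, ← Algebra.commutes c X, mul_assoc, mul_assoc]
        congr 1
        exact ((show Commute X M from hX).pow_right n).eq
    refine Matrix.ext_iff_mulVec.2 fun v => ?_
    obtain ⟨g, rfl⟩ := hspan v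
    show Polynomial.aeval M f *ᵥ (Polynomial.aeval M g *ᵥ w) = X *ᵥ (Polynomial.aeval M g *ᵥ w)
    rw [Matrix.mulVec_mulVec, Matrix.mulVec_mulVec, ← map_mul, mul_comm, map_mul, hcomm, ← Matrix.mulVec_mulVec,
      ← Matrix.mulVec_mulVec]
    exact congrArg _ hf
  -- Sylow subgroups are cyclic
  haveI : Finite (GL (Fin 2 ⊕ Fin 2) F) := inferInstance
  have hcyc : ∀ P : Sylow 5 S, Nontrivial (P : Subgroup S) → IsCyclic (P : Subgroup S) := by
    intro P hP
    haveI := hP
    haveI := P.2.center_nontrivial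
    obtain ⟨c, hc⟩ := exists_prime_orderOf_dvd_card' (G := Subgroup.center (P : Subgroup S)) 5 (by
      obtain ⟨n, hn⟩ := (P.2.to_subgroup (Subgroup.center (P : Subgroup S))).exists_card_eq
      have : 1 < Nat.card (Subgroup.center (P : Subgroup S)) := Finite.one_lt_card
      rcases n with _ | n
      · rw [hn] at this; simp at this
      · exact hn ▸ dvd_pow_self 5 (Nat.succ_ne_zero n))
    let ι : (P : Subgroup S) →* G4 := S.subtype.comp (P : Subgroup S).subtype
    have hι : Function.Injective ι := (Subgroup.subtype_injective S).comp (Subgroup.subtype_injective _)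
    set z := ι c.1
    have hz : z ^ 5 = 1 := by
      rw [← map_pow, show c.1 ^ 5 = 1 from congrArg Subtype.val (orderOf_dvd_iff_pow_eq_one.1 hc.dvd), map_one]
    have hz1 : z ≠ 1 := fun h => by
      rw [show c = 1 from Subtype.ext (hι (h.trans (map_one ι).symm)), orderOf_one] at hc
      omega
    obtain ⟨φ, hφ, hcen⟩ := main z hz hz1
    choose a ha using fun g : (P : Subgroup S) => hcen (ι g : M4) (by
      rw [← Units.val_mul, ← Units.val_mul, ← map_mul, ← map_mul, Subgroup.mem_center_iff.1 c.2 g])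
    let h : (P : Subgroup S) →* AdjoinRoot Φ :=
      { toFun := a
        map_one' := hφ (by rw [ha, map_one, map_one, Units.val_one])
        map_mul' := fun g g' => hφ (by rw [map_mul φ, ha, ha, ha, map_mul, Units.val_mul]) }
    exact isCyclic_of_subgroup_isDomain h fun g g' hgg => hι (Units.ext (by rw [← ha g, ← ha g', show a g = a g' from hgg]))
  have hord : ∀ w : G4, w ^ 5 = 1 → w ≠ 1 → ∀ hw : w ∈ S, IsPGroup 5 (Subgroup.zpowers (⟨w, hw⟩ : S)) := by
    intro w h1 h3 hw
    refine IsPGroup.of_card (n := 1) ?_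
    rw [Nat.card_zpowers, pow_one]
    exact orderOf_eq_prime (Subtype.ext (by simpa using h1)) fun e => h3 (congrArg Subtype.val e)
  obtain ⟨P, hP⟩ := (hord x hx hx1 hxS).exists_le_sylow
  obtain ⟨Q, hQ⟩ := (hord y hy hy1 hyS).exists_le_sylow
  haveI : Fintype G4 := Fintype.ofFinite _
  obtain ⟨g, hg⟩ := MulAction.exists_smul_eq S P Q
  have hmem : (g * ⟨x, hxS⟩ * g⁻¹ : S) ∈ (Q : Subgroup S) := by
    rw [← hg, Sylow.smul_def, Sylow.pointwise_smul_def]
    exact Subgroup.mem_pointwise_smul_iff_inv_smul_mem.2 (by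
      simpa [MulAut.smul_def, mul_assoc] using hP (Subgroup.mem_zpowers _))
  have hyQ : (⟨y, hyS⟩ : S) ∈ (Q : Subgroup S) := hQ (Subgroup.mem_zpowers _)
  haveI : Nontrivial (Q : Subgroup S) := ⟨⟨⟨_, hyQ⟩, 1, fun e => hy1
    (congrArg (fun a : (Q : Subgroup S) => ((a : S) : G4)) e)⟩⟩
  haveI := hcyc Q inferInstance
  set Y : (Q : Subgroup S) := ⟨_, hyQ⟩
  set X : (Q : Subgroup S) := ⟨_, hmem⟩
  have hY : orderOf Y = 5 := orderOf_eq_prime (Subtype.ext (Subtype.ext (by simpa [Y] using hy)))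
    fun e => hy1 (congrArg (fun a : (Q : Subgroup S) => ((a : S) : G4)) e)
  have hX : X ^ 5 = 1 := by
    refine Subtype.ext ?_
    show (g * ⟨x, hxS⟩ * g⁻¹) ^ 5 = 1
    rw [conj_pow, show (⟨x, hxS⟩ : S) ^ 5 = 1 from Subtype.ext hx]
    group
  haveI : Fintype (Q : Subgroup S) := Fintype.ofFinite _
  have hXY : X ∈ Subgroup.zpowers Y := by
    have h5' := IsCyclic.card_pow_eq_one_le (α := (Q : Subgroup S)) (n := 5) (by norm_num)
    have hsub : (Finset.univ.filter fun a : (Q : Subgroup S) => a ∈ Subgroup.zpowers Y) ⊆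
        Finset.univ.filter fun a : (Q : Subgroup S) => a ^ 5 = 1 := fun a ha => by
      rw [Finset.mem_filter] at ha ⊢
      obtain ⟨k, rfl⟩ := Subgroup.mem_zpowers_iff.1 ha.2
      refine ⟨Finset.mem_univ _, ?_⟩
      rw [← zpow_natCast, ← _root_.zpow_mul, mul_comm, _root_.zpow_mul, zpow_natCast, orderOf_dvd_iff_pow_eq_one.1 hY.dvd,
        _root_.one_zpow]
    have heq := Finset.eq_of_subset_of_card_le hsub (h5'.trans (by
      rw [← Fintype.card_subtype, ← Nat.card_eq_fintype_card]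
      exact (hY.symm.trans (Nat.card_zpowers Y).symm).le))
    have : X ∈ Finset.univ.filter fun a : (Q : Subgroup S) => a ^ 5 = 1 := Finset.mem_filter.2 ⟨Finset.mem_univ _, hX⟩
    rw [← heq] at this
    exact (Finset.mem_filter.1 this).2
  obtain ⟨k, hk⟩ := mem_powers_iff_mem_zpowers.2 hXY
  refine ⟨((g⁻¹ : S) : G4), (g⁻¹ : S).2, k, ?_⟩
  have e := congrArg (fun a : (Q : Subgroup S) => ((a : S) : G4)) hk
  simp only [Y, X] at e
  simp only [SubmonoidClass.coe_pow, Subgroup.coe_mul, Subgroup.coe_inv] at e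
  rw [Subgroup.coe_inv, inv_inv]
  exact e.symm

end CfsgLib.HeisSp
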