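import Cfsg.Agent.HeisSp.ClassTwo

/-!
Generators for a group of symplectic type of order `2 ^ 5` of minus type, and the elements normalising it.
-/

set_option autoImplicit false

namespace CfsgLib.HeisSp

open Matrix Subgroup
open scoped commutatorElement

variable {F : Type*} [Field F]

local notation "M4" => Matrix (Fin 2 ⊕ Fin 2) (Fin 2 ⊕ Fin 2) F
local notation "G4" => GL (Fin 2 ⊕ Fin 2) F

/-- The facts used about the group. -/
structure Facts (R : Subgroup G4) : Prop where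
  card : Nat.card R = 32
  negOne : (-1 : G4) ∈ R
  scal : ∀ u ∈ R, (∀ v ∈ R, u * v = v * u) → u = 1 ∨ u = -1
  sq : ∀ u ∈ R, u * u = 1 ∨ u * u = -1
  sign : ∀ u ∈ R, ∀ v ∈ R, v * u = u * v ∨ v * u = -(u * v)
  irred : ∀ M : M4, (∀ u ∈ R, M * (u : M4) = (u : M4) * M) → ∃ c : F, M = c • 1
  minus : ∀ u ∈ R, ∀ v ∈ R, u * u = 1 → v * v = 1 → u * v = v * u → u ≠ 1 → u ≠ -1 →
    v = 1 ∨ v = -1 ∨ v = u ∨ v = -u

theorem neg_one_ne (h2 : (2 : F) ≠ 0) : (-1 : G4) ≠ 1 := fun h => by
  have h' := congrArg (fun g : G4 => (g : M4) (Sum.inl 0) (Sum.inl 0)) h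
  simp at h'
  exact h2 (by linear_combination -h')

theorem neg_ne_self (h2 : (2 : F) ≠ 0) (u : G4) : -u ≠ u := fun h => neg_one_ne h2 (by
  rw [← neg_one_mul u] at h
  exact mul_eq_right.1 h)

theorem facts_of (h2 : (2 : F) ≠ 0) {R : Subgroup G4} (hs : Cfsg.Geo.IsSymplecticTypeGroup 2 R)
    (habs : Cfsg.Geo.ActsAbsolutelyIrreducibly (Cfsg.Geo.matrixSet R)) (hR5 : Nat.card R = 2 ^ 5)
    (hZ : Nat.card (center R) = 2) (hm : Cfsg.Geo.IsOfMinusType 2 R) : Facts R := by
  classical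
  haveI : Finite R := Nat.finite_of_card_ne_zero (by rw [hR5]; norm_num)
  have hexp : Monoid.exponent R = 4 := hs.exponent_eq
  have hcom := class_two hs.pGroup hexp hs.cyclic_of_characteristic (by rw [hR5]; norm_num) hZ
  have hirr : ∀ M : M4, (∀ u ∈ R, M * (u : M4) = (u : M4) * M) → ∃ c : F, M = c • 1 := fun M hM =>
    habs.2 M (by rintro _ ⟨u, hu, rfl⟩; exact hM u hu)
  have hz2 : ∀ z ∈ center R, z * z = 1 := fun z hz => by
    have h := orderOf_dvd_natCard (⟨z, hz⟩ : center R)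
    rw [hZ] at h
    have h' := orderOf_dvd_iff_pow_eq_one.1 h
    rw [← sq]
    exact congrArg Subtype.val h'
  have hval : ∀ u : R, u ∈ center R → (u : G4) = 1 ∨ (u : G4) = -1 := by
    intro u hu
    obtain ⟨c, hc⟩ := hirr ((u : G4) : M4) fun v hv => by
      rw [← Units.val_mul, ← Units.val_mul]
      exact congrArg (fun g : G4 => (g : M4)) (congrArg Subtype.val (mem_center_iff.1 hu ⟨v, hv⟩)).symm
    have h1 := congrArg (fun g : R => (((g : G4) : M4) (Sum.inl 0) (Sum.inl 0))) (hz2 u hu)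
    simp [hc] at h1
    rcases mul_eq_zero.1 (show (c - 1) * (c + 1) = 0 by linear_combination h1) with h | h
    · exact Or.inl (Units.ext (by rw [hc, sub_eq_zero.1 h, one_smul, Units.val_one]))
    · exact Or.inr (Units.ext (by rw [hc, eq_neg_of_add_eq_zero_left h, neg_smul, one_smul]; rfl))
  obtain ⟨z, hz, hz1⟩ : ∃ z : R, z ∈ center R ∧ z ≠ 1 := by
    haveI : Nontrivial (center R) := Finite.one_lt_card_iff_nontrivial.1 (by omega)
    obtain ⟨⟨z, hz⟩, hne⟩ := exists_ne (1 : center R)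
    exact ⟨z, hz, fun h => hne (Subtype.ext h)⟩
  have hneg : (-1 : G4) ∈ R := by
    rcases hval z hz with h | h
    · exact absurd (Subtype.ext h) hz1
    · exact h ▸ z.2
  refine ⟨by rw [hR5]; norm_num, hneg, fun u hu h => hval ⟨u, hu⟩ (mem_center_iff.2 fun v => Subtype.ext (h v v.2).symm),
    fun u hu => ?_, fun u hu v hv => ?_, hirr, fun u hu v hv hu2 hv2 huv hu1 hu1' => ?_⟩
  · have hsq : (⟨u, hu⟩ : R) ^ 2 ∈ center R := mem_center_iff.2 fun b => by
      set a : R := ⟨u, hu⟩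
      have hab : a * b * a⁻¹ = ⁅a, b⁆ * b := by rw [commutatorElement_def]; group
      have h2' : a ^ 2 * b * (a ^ 2)⁻¹ = b := by
        calc a ^ 2 * b * (a ^ 2)⁻¹ = a * (a * b * a⁻¹) * a⁻¹ := by rw [sq]; group
          _ = a * ⁅a, b⁆ * a⁻¹ * (a * b * a⁻¹) := by rw [hab]; group
          _ = ⁅a, b⁆ * (⁅a, b⁆ * b) := by rw [mem_center_iff.1 (hcom a b) a, mul_inv_cancel_right, hab]
          _ = b := by rw [← mul_assoc, hz2 _ (hcom a b), one_mul]
      exact (mul_inv_eq_iff_eq_mul.1 h2').symm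
    have := hval _ hsq
    simpa [sq] using this
  · have h : v * u = ((⁅(⟨v, hv⟩ : R), ⟨u, hu⟩⁆ : R) : G4) * (u * v) := by
      simp [commutatorElement_def, mul_assoc]
    rcases hval _ (hcom ⟨v, hv⟩ ⟨u, hu⟩) with h' | h' <;> rw [h'] at h
    · exact Or.inl (by rw [h, one_mul])
    · exact Or.inr (by rw [h, neg_one_mul])
  · by_contra hno
    push Not at hno
    obtain ⟨hv1, hv1', hvu, hvu'⟩ := hno
    -- the elementary abelian group of order eight
    let S : Set R := {⟨-1, hneg⟩, ⟨u, hu⟩, ⟨v, hv⟩}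
    let A : Subgroup R := closure S
    have hpair : ∀ a ∈ S, ∀ b ∈ S, a * b = b * a := by
      intro a ha b hb
      rcases ha with rfl | rfl | rfl <;> rcases hb with rfl | rfl | rfl <;> refine Subtype.ext ?_ <;>
        simp [huv]
    haveI hcA : IsMulCommutative A := Subgroup.isMulCommutative_closure hpair
    have hA2 : ∀ a ∈ A, a * a = 1 := by
      intro a ha
      induction ha using Subgroup.closure_induction with
      | mem a ha => rcases ha with rfl | rfl | rfl <;> refine Subtype.ext ?_ <;> simp [hu2, hv2]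
      | one => exact one_mul 1
      | mul a b ha hb iha ihb =>
        have hab : a * b = b * a := congrArg Subtype.val (hcA.is_comm.comm (⟨a, ha⟩ : A) ⟨b, hb⟩)
        rw [show a * b * (a * b) = a * (b * a) * b by group, ← hab, show a * (a * b) * b = a * a * (b * b) by group,
          iha, ihb, mul_one]
      | inv a _ ih => rw [← _root_.mul_inv_rev, ih, inv_one]
    have hlt := hm A hcA hA2
    let f : Fin 2 × Fin 2 × Fin 2 → A := fun t =>
      (⟨⟨-1, hneg⟩, subset_closure (Or.inl rfl)⟩ : A) ^ (t.1 : ℕ) *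
      ((⟨⟨u, hu⟩, subset_closure (Or.inr (Or.inl rfl))⟩ : A) ^ (t.2.1 : ℕ) *
        (⟨⟨v, hv⟩, subset_closure (Or.inr (Or.inr rfl))⟩ : A) ^ (t.2.2 : ℕ))
    let P : Subgroup G4 :=
      { carrier := {x | x = 1 ∨ x = -1 ∨ x = u ∨ x = -u}
        one_mem' := Or.inl rfl
        mul_mem' := by rintro x y (rfl | rfl | rfl | rfl) (rfl | rfl | rfl | rfl) <;> simp [hu2]
        inv_mem' := by
          have huinv : u⁻¹ = u := inv_eq_of_mul_eq_one_right hu2
          rintro x (rfl | rfl | rfl | rfl) <;> simp [huinv] }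
    have hnP : ∀ i j : ℕ, (-1 : G4) ^ i * u ^ j ∈ P := fun i j =>
      P.mul_mem (P.pow_mem (Or.inr (Or.inl rfl)) i) (P.pow_mem (Or.inr (Or.inr (Or.inl rfl))) j)
    have hvP : v ∉ P := fun h => by
      rcases h with h | h | h | h
      exacts [hv1 h, hv1' h, hvu h, hvu' h]
    have hf : Function.Injective f := by
      rintro ⟨i, j, k⟩ ⟨i', j', k'⟩ h
      have h' : (-1 : G4) ^ (i : ℕ) * u ^ (j : ℕ) * v ^ (k : ℕ) = (-1 : G4) ^ (i' : ℕ) * u ^ (j' : ℕ) * v ^ (k' : ℕ) := by
        have h0 := congrArg (fun a : A => ((a : R) : G4)) h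
        simpa [f, mul_assoc] using h0
      have hk : k = k' := by
        fin_cases k <;> fin_cases k' <;> first
          | rfl
          | (exfalso
             simp only [Fin.zero_eta, Fin.mk_one, Fin.val_zero, Fin.val_one, pow_zero, pow_one, mul_one] at h'
             first
             | exact hvP ((P.mul_mem_cancel_left (hnP _ _)).1 (h' ▸ hnP _ _))
             | exact hvP ((P.mul_mem_cancel_left (hnP _ _)).1 (h'.symm ▸ hnP _ _)))
      subst hk
      have h3 := mul_right_cancel h'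
      have hn1 := neg_one_ne (F := F) h2
      have hij : j = j' := by
        fin_cases j <;> fin_cases j' <;> first
          | rfl
          | (exfalso; fin_cases i <;> fin_cases i' <;> simp at h3 <;> first
              | exact hu1 h3
              | exact hu1 h3.symm
              | exact hu1' h3
              | exact hu1' h3.symm
              | exact hu1 (neg_inj.1 (by simpa using h3))
              | exact hu1' (by rw [← h3, neg_neg])
              | exact hu1' (by rw [h3, neg_neg]))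
      subst hij
      have h4 := mul_right_cancel h3
      have hii : i = i' := by
        fin_cases i <;> fin_cases i' <;> first
          | rfl
          | (exfalso; simp at h4; first | exact hn1 h4 | exact hn1 h4.symm)
      rw [hii]
    have h8 := Nat.card_le_card_of_injective f hf
    rw [Nat.card_prod, Nat.card_prod, Nat.card_fin] at h8
    omega

/-- Generators: a dihedral pair and a quaternion pair. -/
structure Gens (R : Subgroup G4) where
  /-- an involution -/
  A : G4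
  /-- an involution -/
  B : G4
  /-- an element of order four -/
  C : G4
  /-- an element of order four -/
  D : G4
  hA : A ∈ R
  hB : B ∈ R
  hC : C ∈ R
  hD : D ∈ R
  AA : A * A = 1
  BB : B * B = 1
  CC : C * C = -1
  DD : D * D = -1
  BA : B * A = -(A * B)
  CA : C * A = A * C
  CB : C * B = B * C
  DA : D * A = A * D
  DB : D * B = B * D
  DC : D * C = -(C * D)
  gen : ∀ v ∈ R, v ∈ closure ({A, B, C, D, -1} : Set G4)

/-- Adjusting to commute with an anticommuting pair. -/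
theorem adjust {R : Subgroup G4} (hR : Facts R) {a b u : G4} (ha : a ∈ R) (hb : b ∈ R) (hu : u ∈ R)
    (hab : b * a = -(a * b)) : ∃ w : G4, (w = 1 ∨ w = a ∨ w = b ∨ w = a * b) ∧
      (w * u) * a = a * (w * u) ∧ (w * u) * b = b * (w * u) := by
  have hab' : ∀ x, b * (a * x) = -(a * (b * x)) := fun x => by rw [← mul_assoc, hab, neg_mul, mul_assoc]
  rcases hR.sign a ha u hu with h1 | h1 <;> rcases hR.sign b hb u hu with h3 | h3
  · exact ⟨1, Or.inl rfl, by rw [one_mul, h1], by rw [one_mul, h3]⟩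
  · refine ⟨a, Or.inr (Or.inl rfl), ?_, ?_⟩ <;>
      simp only [mul_assoc, h1, h3, hab, hab', mul_neg, neg_mul, neg_neg]
  · refine ⟨b, Or.inr (Or.inr (Or.inl rfl)), ?_, ?_⟩ <;>
      simp only [mul_assoc, h1, h3, hab, hab', mul_neg, neg_mul, neg_neg]
  · refine ⟨a * b, Or.inr (Or.inr (Or.inr rfl)), ?_, ?_⟩ <;>
      simp only [mul_assoc, h1, h3, hab, hab', mul_neg, neg_mul, neg_neg]

theorem ne_of_anti (h2 : (2 : F) ≠ 0) {u v : G4} (h : v * u = -(u * v)) : u ≠ 1 ∧ u ≠ -1 := by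
  constructor <;> rintro rfl <;> simp at h
  · exact neg_ne_self h2 v h.symm
  · exact neg_ne_self h2 v h

/-- Generators exist. -/
theorem exists_gens (h2 : (2 : F) ≠ 0) {R : Subgroup G4} (hR : Facts R) : Nonempty (Gens R) := by
  classical
  haveI : Finite R := Nat.finite_of_card_ne_zero (by rw [hR.card]; norm_num)
  -- commuting with two anticommuting pairs
  have chain : ∀ a b c d : G4, a ∈ R → b ∈ R → c ∈ R → d ∈ R → b * a = -(a * b) → d * c = -(c * d) →
      c * a = a * c → c * b = b * c → d * a = a * d → d * b = b * d →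
      ∀ v ∈ R, v * a = a * v → v * b = b * v → v * c = c * v → v * d = d * v → v = 1 ∨ v = -1 := by
    intro a b c d ha hb hc hd hba hdc hca hcb hda hdb v hv va vb vc vd
    let K1 := centralizer {a} ⊓ R
    let K2 := centralizer {b} ⊓ K1
    let K3 := centralizer {c} ⊓ K2
    let K4 := centralizer {d} ⊓ K3
    have hanti : ∀ x y : G4, y * x = -(x * y) → y * x ≠ x * y := fun x y h e =>
      neg_ne_self h2 (x * y) (h.symm.trans e)
    have step : ∀ (x : G4) (K : Subgroup G4) (y : G4), K ≤ R → y ∈ K → y * x ≠ x * y → Nat.card K ∣ 32 →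
        2 * Nat.card (centralizer {x} ⊓ K : Subgroup G4) ≤ Nat.card K := by
      intro x K y hKR hy hne hd32
      haveI : Finite K := Finite.of_injective _ (Subgroup.inclusion_injective hKR)
      have hdvd := Subgroup.card_dvd_of_le (inf_le_right : centralizer {x} ⊓ K ≤ K)
      have hne' : Nat.card (centralizer {x} ⊓ K : Subgroup G4) ≠ Nat.card K := fun h => by
        have := Subgroup.eq_of_le_of_card_ge (inf_le_right : centralizer {x} ⊓ K ≤ K) h.ge
        exact hne (mem_centralizer_singleton_iff.1 ((this.symm ▸ hy : y ∈ centralizer {x} ⊓ K).1))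
      obtain ⟨k, hk⟩ := hdvd
      rcases k with _ | _ | k
      · rw [mul_zero] at hk; exact absurd hk Nat.card_pos.ne'
      · exact absurd (by rw [hk, zero_add, mul_one]) hne'
      · rw [hk]
        calc 2 * _ ≤ (k + 2) * _ := Nat.mul_le_mul_right _ (by omega)
          _ = _ := mul_comm _ _
    have le1 : K1 ≤ R := inf_le_right
    have le2 : K2 ≤ R := inf_le_right.trans le1
    have le3 : K3 ≤ R := inf_le_right.trans le2
    have dv : ∀ K : Subgroup G4, K ≤ R → Nat.card K ∣ 32 := fun K h => hR.card ▸ Subgroup.card_dvd_of_le h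
    have s1 := step a R b le_rfl hb (hanti a b hba) (dv _ le_rfl)
    have s2 := step b K1 a le1 (mem_inf.2 ⟨mem_centralizer_singleton_iff.2 rfl, ha⟩)
      (fun e => hanti a b hba e.symm) (dv _ le1)
    have mk2 : ∀ x ∈ R, x * a = a * x → x * b = b * x → x ∈ K2 := fun x hx h1 h3 => mem_inf.2
      ⟨mem_centralizer_singleton_iff.2 h3, mem_inf.2 ⟨mem_centralizer_singleton_iff.2 h1, hx⟩⟩
    have s3 := step c K2 d le2 (mk2 d hd hda hdb) (hanti c d hdc) (dv _ le2)
    have s4 := step d K3 c le3 (mem_inf.2 ⟨mem_centralizer_singleton_iff.2 rfl, mk2 c hc hca hcb⟩)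
      (fun e => hanti c d hdc e.symm) (dv _ le3)
    have hle : Nat.card K4 ≤ 2 := by
      rw [hR.card] at s1
      simp only [K4, K3, K2, K1] at *
      omega
    haveI : Finite K4 := Finite.of_injective _ (Subgroup.inclusion_injective (inf_le_right.trans le3))
    have mk4 : ∀ x ∈ R, x * a = a * x → x * b = b * x → x * c = c * x → x * d = d * x → x ∈ K4 :=
      fun x hx h1 h3 h5 h6 => mem_inf.2 ⟨mem_centralizer_singleton_iff.2 h6,
        mem_inf.2 ⟨mem_centralizer_singleton_iff.2 h5, mk2 x hx h1 h3⟩⟩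
    by_contra hno
    push Not at hno
    let f : Fin 3 → K4 := ![⟨1, K4.one_mem⟩, ⟨-1, mk4 _ hR.negOne (by simp) (by simp) (by simp) (by simp)⟩,
      ⟨v, mk4 v hv va vb vc vd⟩]
    have hn1 := neg_one_ne (F := F) h2
    have hf : Function.Injective f := by
      intro i j h
      have h' := congrArg Subtype.val h
      fin_cases i <;> fin_cases j <;> simp [f] at h' <;>
        first
        | rfl
        | exact absurd h' hn1
        | exact absurd h'.symm hn1
        | exact absurd h' hno.1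
        | exact absurd h'.symm hno.1
        | exact absurd h' hno.2
        | exact absurd h'.symm hno.2
    have := Nat.card_le_card_of_injective f hf
    rw [Nat.card_fin] at this
    omega
  -- two pairs
  obtain ⟨a₀, ha₀, b₀, hb₀, hab₀⟩ : ∃ a ∈ R, ∃ b ∈ R, b * a = -(a * b) := by
    by_contra hno
    push Not at hno
    obtain ⟨c, hc⟩ := hR.irred (Matrix.single (Sum.inl 0) (Sum.inl 1) 1) fun u hu => by
      rcases hR.scal u hu fun v hv => ((hR.sign u hu v hv).resolve_right (hno u hu v hv)).symm with rfl | rfl <;> simp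
    have := congrFun (congrFun hc (Sum.inl 0)) (Sum.inl 1)
    simp at this
  obtain ⟨c₀, hc₀, hc₀a, hc₀b, d₀, hd₀, hcd₀⟩ : ∃ c ∈ R, c * a₀ = a₀ * c ∧ c * b₀ = b₀ * c ∧ ∃ d ∈ R,
      d * c = -(c * d) := by
    by_contra hno
    push Not at hno
    have hcov : ∀ u : R, ∃ t : Fin 4 × Fin 2, (u : G4) = (![1, a₀, b₀, a₀ * b₀] t.1)⁻¹ * ![1, -1] t.2 := by
      intro u
      obtain ⟨w, hw, h1, h3⟩ := adjust hR ha₀ hb₀ u.2 hab₀
      have hwR : w ∈ R := by
        rcases hw with rfl | rfl | rfl | rfl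
        exacts [R.one_mem, ha₀, hb₀, R.mul_mem ha₀ hb₀]
      have hwu := R.mul_mem hwR u.2
      obtain ⟨k, hk⟩ : ∃ k : Fin 4, ![1, a₀, b₀, a₀ * b₀] k = w := by
        rcases hw with rfl | rfl | rfl | rfl
        exacts [⟨0, rfl⟩, ⟨1, rfl⟩, ⟨2, rfl⟩, ⟨3, rfl⟩]
      rcases hR.scal _ hwu fun v hv => ((hR.sign _ hwu v hv).resolve_right (hno _ hwu h1 h3 v hv)).symm with h | h
      · exact ⟨(k, 0), by rw [hk]; simpa using eq_inv_of_mul_eq_one_right h⟩
      · exact ⟨(k, 1), by rw [hk]; show (u : G4) = w⁻¹ * -1; rw [← h, inv_mul_cancel_left]⟩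
    choose t ht using hcov
    have hinj : Function.Injective t := fun u v h => Subtype.ext (by rw [ht u, ht v, h])
    have hle := Nat.card_le_card_of_injective t hinj
    rw [Nat.card_prod, Nat.card_fin, Nat.card_fin, hR.card] at hle
    omega
  obtain ⟨w, hw, hwa, hwb⟩ := adjust hR ha₀ hb₀ hd₀ hab₀
  have hwc : c₀ * w = w * c₀ := by
    rcases hw with rfl | rfl | rfl | rfl
    · simp
    · exact hc₀a
    · exact hc₀b
    · rw [← mul_assoc, hc₀a, mul_assoc, hc₀b, mul_assoc]
  set d₁ := w * d₀ with hd₁d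
  have hd₁ : d₁ ∈ R := R.mul_mem (by
    rcases hw with rfl | rfl | rfl | rfl
    exacts [R.one_mem, ha₀, hb₀, R.mul_mem ha₀ hb₀]) hd₀
  have hcd₁ : d₁ * c₀ = -(c₀ * d₁) := by
    rw [hd₁d, mul_assoc, hcd₀, mul_neg, ← mul_assoc, ← hwc, mul_assoc]
  -- normalise one pair
  have pair : ∀ a b : G4, a ∈ R → b ∈ R → b * a = -(a * b) → ∃ a' b' : G4, a' ∈ R ∧ b' ∈ R ∧ b' * a' = -(a' * b') ∧
      ((a' * a' = 1 ∧ b' * b' = 1) ∨ (a' * a' = -1 ∧ b' * b' = -1)) ∧
      ∀ x, x * a = a * x → x * b = b * x → x * a' = a' * x ∧ x * b' = b' * x := by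
    intro a b ha hb hab
    have hab' : ∀ x, b * (a * x) = -(a * (b * x)) := fun x => by rw [← mul_assoc, hab, neg_mul, mul_assoc]
    have hmulc : ∀ x, x * a = a * x → x * b = b * x → x * (a * b) = a * b * x := fun x h1 h3 => by
      rw [← mul_assoc, h1, mul_assoc, h3, mul_assoc]
    rcases hR.sq a ha with sa | sa <;> rcases hR.sq b hb with sb | sb
    · exact ⟨a, b, ha, hb, hab, Or.inl ⟨sa, sb⟩, fun x h1 h3 => ⟨h1, h3⟩⟩
    · refine ⟨a, a * b, ha, R.mul_mem ha hb, ?_, Or.inl ⟨sa, ?_⟩, fun x h1 h3 => ⟨h1, hmulc x h1 h3⟩⟩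
      · simp only [mul_assoc, hab, mul_neg]
      · simp only [mul_assoc, hab', mul_neg, sb]
        simp [sa]
    · refine ⟨a * b, b, R.mul_mem ha hb, hb, ?_, Or.inl ⟨?_, sb⟩, fun x h1 h3 => ⟨hmulc x h1 h3, h3⟩⟩
      · simp only [mul_assoc, hab', mul_neg]
      · simp only [mul_assoc, hab', mul_neg, sb, mul_one]
        simp [sa]
    · exact ⟨a, b, ha, hb, hab, Or.inr ⟨sa, sb⟩, fun x h1 h3 => ⟨h1, h3⟩⟩
  obtain ⟨a, b, ha, hb, hab, hs1, hp1⟩ := pair a₀ b₀ ha₀ hb₀ hab₀
  obtain ⟨c, d, hc, hd, hcd, hs2, hp2⟩ := pair c₀ d₁ hc₀ hd₁ hcd₁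
  have hca : c * a = a * c := by
    obtain ⟨k1, -⟩ := hp1 c₀ hc₀a hc₀b
    obtain ⟨k3, -⟩ := hp1 d₁ hwa hwb
    exact (hp2 a k1.symm k3.symm).1.symm
  have hcb : c * b = b * c := by
    obtain ⟨-, k1⟩ := hp1 c₀ hc₀a hc₀b
    obtain ⟨-, k3⟩ := hp1 d₁ hwa hwb
    exact (hp2 b k1.symm k3.symm).1.symm
  have hda : d * a = a * d := by
    obtain ⟨k1, -⟩ := hp1 c₀ hc₀a hc₀b
    obtain ⟨k3, -⟩ := hp1 d₁ hwa hwb
    exact (hp2 a k1.symm k3.symm).2.symm
  have hdb : d * b = b * d := by
    obtain ⟨-, k1⟩ := hp1 c₀ hc₀a hc₀b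
    obtain ⟨-, k3⟩ := hp1 d₁ hwa hwb
    exact (hp2 b k1.symm k3.symm).2.symm
  have build : ∀ A B C D : G4, A ∈ R → B ∈ R → C ∈ R → D ∈ R → A * A = 1 → B * B = 1 → C * C = -1 → D * D = -1 →
      B * A = -(A * B) → C * A = A * C → C * B = B * C → D * A = A * D → D * B = B * D → D * C = -(C * D) →
      Nonempty (Gens R) := by
    intro A B C D hA hB hC hD AA BB CC DD BA CA CB DA DB DC
    refine ⟨⟨A, B, C, D, hA, hB, hC, hD, AA, BB, CC, DD, BA, CA, CB, DA, DB, DC, fun v hv => ?_⟩⟩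
    set K := closure ({A, B, C, D, -1} : Set G4)
    have kA : A ∈ K := subset_closure (by simp)
    have kB : B ∈ K := subset_closure (by simp)
    have kC : C ∈ K := subset_closure (by simp)
    have kD : D ∈ K := subset_closure (by simp)
    obtain ⟨w₁, hw₁, h1, h3⟩ := adjust hR hA hB hv BA
    have w₁K : w₁ ∈ K ∧ w₁ ∈ R := by
      rcases hw₁ with rfl | rfl | rfl | rfl
      exacts [⟨K.one_mem, R.one_mem⟩, ⟨kA, hA⟩, ⟨kB, hB⟩, ⟨K.mul_mem kA kB, R.mul_mem hA hB⟩]
    obtain ⟨w₂, hw₂, h5, h6⟩ := adjust hR hC hD (R.mul_mem w₁K.2 hv) DC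
    have w₂K : w₂ ∈ K ∧ w₂ ∈ R ∧ w₂ * A = A * w₂ ∧ w₂ * B = B * w₂ := by
      rcases hw₂ with rfl | rfl | rfl | rfl
      · exact ⟨K.one_mem, R.one_mem, by simp, by simp⟩
      · exact ⟨kC, hC, CA, CB⟩
      · exact ⟨kD, hD, DA, DB⟩
      · exact ⟨K.mul_mem kC kD, R.mul_mem hC hD, by rw [mul_assoc, DA, ← mul_assoc, CA, mul_assoc],
          by rw [mul_assoc, DB, ← mul_assoc, CB, mul_assoc]⟩
    have := chain A B C D hA hB hC hD BA DC CA CB DA DB _ (R.mul_mem w₂K.2.1 (R.mul_mem w₁K.2 hv))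
      (by rw [mul_assoc, h1, ← mul_assoc, w₂K.2.2.1, mul_assoc])
      (by rw [mul_assoc, h3, ← mul_assoc, w₂K.2.2.2, mul_assoc]) h5 h6
    have hm : w₂ * (w₁ * v) ∈ K := by
      rcases this with h | h <;> rw [h]
      · exact K.one_mem
      · exact subset_closure (by simp)
    exact (K.mul_mem_cancel_left w₁K.1).1 ((K.mul_mem_cancel_left w₂K.1).1 hm)
  rcases hs1 with ⟨sa, sb⟩ | ⟨sa, sb⟩ <;> rcases hs2 with ⟨sc, sd⟩ | ⟨sc, sd⟩
  · exfalso
    obtain ⟨h1, h1'⟩ := ne_of_anti h2 hab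
    obtain ⟨hc1, hc1'⟩ := ne_of_anti h2 hcd
    rcases hR.minus a ha c hc sa sc hca.symm h1 h1' with h | h | h | h
    · exact hc1 h
    · exact hc1' h
    · rw [h, hda] at hcd; exact neg_ne_self h2 (a * d) hcd.symm
    · rw [h, mul_neg, hda, neg_mul, neg_neg] at hcd; exact neg_ne_self h2 (a * d) hcd
  · exact build a b c d ha hb hc hd sa sb sc sd hab hca hcb hda hdb hcd
  · exact build c d a b hc hd ha hb sc sd sa sb hcd hca.symm hda.symm hcb.symm hdb.symm hab
  · exfalso
    have hca' : ∀ x, c * (a * x) = a * (c * x) := fun x => by rw [← mul_assoc, hca, mul_assoc]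
    have hdb' : ∀ x, d * (b * x) = b * (d * x) := fun x => by rw [← mul_assoc, hdb, mul_assoc]
    have hda' : ∀ x, d * (a * x) = a * (d * x) := fun x => by rw [← mul_assoc, hda, mul_assoc]
    have hcb' : ∀ x, c * (b * x) = b * (c * x) := fun x => by rw [← mul_assoc, hcb, mul_assoc]
    have hab' : ∀ x, b * (a * x) = -(a * (b * x)) := fun x => by rw [← mul_assoc, hab, neg_mul, mul_assoc]
    have u2 : a * c * (a * c) = 1 := by
      rw [mul_assoc, hca', sc, mul_neg_one, mul_neg, sa, neg_neg]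
    have v2 : b * d * (b * d) = 1 := by
      rw [mul_assoc, hdb', sd, mul_neg_one, mul_neg, sb, neg_neg]
    have huv : a * c * (b * d) = b * d * (a * c) := by
      simp only [mul_assoc, hcb', hda', hcd, hab', mul_neg, neg_neg]
    have hbu : b * (a * c) = -(a * c * b) := by rw [hab', mul_assoc, hcb]
    obtain ⟨h1, h1'⟩ := ne_of_anti h2 (u := a * c) (v := b) hbu
    have hbv : b * (b * d) = b * d * b := by rw [mul_assoc, hdb]
    rcases hR.minus _ (R.mul_mem ha hc) _ (R.mul_mem hb hd) u2 v2 huv h1 h1' with h | h | h | h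
    · have : a * (b * d) = a := by rw [h, mul_one]
      rw [show b * d = 1 from h] at hbv
      have e : d = b⁻¹ := eq_inv_of_mul_eq_one_right h
      rw [e] at hcd
      have hcb2 : c * b⁻¹ = b⁻¹ * c := ((show Commute c b from hcb).inv_right).eq
      rw [← hcb2] at hcd
      exact neg_ne_self h2 _ hcd.symm
    · have e : d = -b⁻¹ := by rw [← inv_mul_cancel_left b d, h, mul_neg_one]
      rw [e] at hcd
      have hcb2 : c * b⁻¹ = b⁻¹ * c := ((show Commute c b from hcb).inv_right).eq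
      simp only [neg_mul, mul_neg, neg_neg, ← hcb2] at hcd
      exact neg_ne_self h2 _ hcd
    · rw [h] at hbv
      exact neg_ne_self h2 _ (hbu.symm.trans hbv)
    · rw [h, mul_neg, neg_mul] at hbv
      exact neg_ne_self h2 _ (hbu.symm.trans (neg_inj.1 hbv))

end CfsgLib.HeisSp
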