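import Cfsg.Agent.HeisSp.Facts
import Cfsg.Agent.SpGeom.Basic

/-!
An element of order five normalising the group of symplectic type.
-/

set_option autoImplicit false

namespace CfsgLib.HeisSp

open Matrix Subgroup

variable {F : Type*} [Field F]

local notation "M4" => Matrix (Fin 2 ⊕ Fin 2) (Fin 2 ⊕ Fin 2) F
local notation "G4" => GL (Fin 2 ⊕ Fin 2) F
local notation "f4" => Cfsg.sympForm 2 F

/-- A scalar as a unit matrix. -/
def Sc (c : Fˣ) : G4 := Units.map (Matrix.scalar (Fin 2 ⊕ Fin 2) : F →+* M4).toMonoidHom c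

theorem Sc_val (c : Fˣ) : ((Sc c : G4) : M4) = (c : F) • 1 := by
  simp [Sc, Matrix.smul_one_eq_diagonal]

theorem Sc_comm (c : Fˣ) (g : G4) : g * Sc c = Sc c * g := Units.ext (by
  rw [Units.val_mul, Units.val_mul, Sc_val, Matrix.mul_smul, Matrix.smul_mul, mul_one, one_mul])

/-- A criterion for normalising. -/
theorem normalizes {R : Subgroup G4} [Finite R] (H : Gens R) (hneg : (-1 : G4) ∈ R) {g : G4}
    (hA : g * H.A * g⁻¹ ∈ R) (hB : g * H.B * g⁻¹ ∈ R) (hC : g * H.C * g⁻¹ ∈ R) (hD : g * H.D * g⁻¹ ∈ R) :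
    g ∈ Cfsg.Geo.subgroupNormalizer R := by
  have hsub : ∀ r ∈ R, g * r * g⁻¹ ∈ R := by
    intro r hr
    have hle : R ≤ R.comap (MulAut.conj g).toMonoidHom :=
      (fun v hv => (Subgroup.closure_le _).2 (by
        rintro x (rfl | rfl | rfl | rfl | rfl)
        · exact hA
        · exact hB
        · exact hC
        · exact hD
        · show g * -1 * g⁻¹ ∈ R
          rw [mul_neg_one, neg_mul, mul_inv_cancel]
          exact hneg) (H.gen v hv))
    exact hle hr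
  show g ∈ Subgroup.normalizer (R : Set G4)
  refine Subgroup.mem_normalizer_iff.2 fun r => ⟨fun hr => hsub r hr, fun hr => ?_⟩
  let f : R → R := fun t => ⟨g * t * g⁻¹, hsub t t.2⟩
  have hf : Function.Injective f := fun s t h =>
    Subtype.ext (mul_left_cancel (mul_right_cancel (congrArg Subtype.val h)))
  obtain ⟨⟨t, ht⟩, hft⟩ := (Finite.injective_iff_surjective.1 hf) ⟨g * r * g⁻¹, hr⟩
  rwa [← mul_left_cancel (mul_right_cancel (congrArg Subtype.val hft : g * t * g⁻¹ = g * r * g⁻¹))]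

/-- `1 + u` for a square root `u` of minus one. -/
theorem exists_step (h2 : (2 : F) ≠ 0) {u : G4} (hu : u * u = -1) :
    ∃ s : G4, (∀ v : G4, v * u = u * v → s * v * s⁻¹ = v) ∧ ∀ v : G4, v * u = -(u * v) → s * v * s⁻¹ = u * v := by
  set U := (u : M4)
  have hU : U * U = -1 := by rw [← Units.val_mul, hu]; rfl
  have e : (1 + U) * (1 - U) = (2 : F) • 1 := by
    rw [add_mul, mul_sub, mul_sub, hU, one_mul, one_mul, mul_one, two_smul]; abel
  have e' : (1 - U) * (1 + U) = (2 : F) • 1 := by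
    rw [sub_mul, mul_add, mul_add, hU, one_mul, one_mul, mul_one, two_smul]; abel
  let s : G4 := ⟨1 + U, (2 : F)⁻¹ • (1 - U), by rw [Matrix.mul_smul, e, smul_smul, inv_mul_cancel₀ h2, one_smul],
    by rw [Matrix.smul_mul, e', smul_smul, inv_mul_cancel₀ h2, one_smul]⟩
  refine ⟨s, fun v hv => mul_inv_eq_iff_eq_mul.2 (Units.ext ?_), fun v hv => mul_inv_eq_iff_eq_mul.2 (Units.ext ?_)⟩
  · show (1 + U) * (v : M4) = (v : M4) * (1 + U)
    rw [add_mul, mul_add, one_mul, mul_one, ← Units.val_mul, ← Units.val_mul, hv]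
  · show (1 + U) * (v : M4) = ((u * v : G4) : M4) * (1 + U)
    have hv' : (v : M4) * U = -(U * (v : M4)) := by rw [← Units.val_mul, hv]; rfl
    rw [Units.val_mul, add_mul, mul_add, one_mul, mul_one, mul_assoc U (v : M4) U, hv', mul_neg, ← mul_assoc, hU,
      neg_one_mul, neg_neg]
    abel

/-- A non-scalar element of the normaliser whose fifth power is scalar. -/
theorem exists_five_gl [Fintype F] (h2 : (2 : F) ≠ 0) {R : Subgroup G4} (hR : Facts R) (H : Gens R) :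
    ∃ (y : G4) (d : F), y ∈ Cfsg.Geo.subgroupNormalizer R ∧ ((y ^ 5 : G4) : M4) = d • 1 ∧
      ∀ c : F, (y : M4) ≠ c • 1 := by
  haveI : Finite R := Nat.finite_of_card_ne_zero (by rw [hR.card]; norm_num)
  obtain ⟨A, B, C, D, hA, hB, hC, hD, AA, BB, CC, DD, BA, CA, CB, DA, DB, DC, hgen⟩ := H
  let hR' : Gens R := ⟨A, B, C, D, hA, hB, hC, hD, AA, BB, CC, DD, BA, CA, CB, DA, DB, DC, hgen⟩
  have AA' : ∀ x, A * (A * x) = x := fun x => by rw [← mul_assoc, AA, one_mul]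
  have BB' : ∀ x, B * (B * x) = x := fun x => by rw [← mul_assoc, BB, one_mul]
  have CC' : ∀ x, C * (C * x) = -x := fun x => by rw [← mul_assoc, CC, neg_one_mul]
  have DD' : ∀ x, D * (D * x) = -x := fun x => by rw [← mul_assoc, DD, neg_one_mul]
  have BA' : ∀ x, B * (A * x) = -(A * (B * x)) := fun x => by rw [← mul_assoc, BA, neg_mul, mul_assoc]
  have CA' : ∀ x, C * (A * x) = A * (C * x) := fun x => by rw [← mul_assoc, CA, mul_assoc]
  have CB' : ∀ x, C * (B * x) = B * (C * x) := fun x => by rw [← mul_assoc, CB, mul_assoc]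
  have DA' : ∀ x, D * (A * x) = A * (D * x) := fun x => by rw [← mul_assoc, DA, mul_assoc]
  have DB' : ∀ x, D * (B * x) = B * (D * x) := fun x => by rw [← mul_assoc, DB, mul_assoc]
  have DC' : ∀ x, D * (C * x) = -(C * (D * x)) := fun x => by rw [← mul_assoc, DC, neg_mul, mul_assoc]
  obtain ⟨s₁, c₁, a₁⟩ := exists_step h2 (u := C) CC
  obtain ⟨s₂, c₂, a₂⟩ := exists_step h2 (u := D) DD
  obtain ⟨s₃, c₃, a₃⟩ := exists_step h2 (u := A * C) (by rw [mul_assoc, CA', CC, mul_neg_one, mul_neg, AA])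
  obtain ⟨s₄, c₄, a₄⟩ := exists_step h2 (u := A * B) (by rw [mul_assoc, BA', BB, mul_one, mul_neg, AA])
  set y := s₁ * s₂ * s₃ * s₄ with hy
  clear_value y
  set φ : G4 →* G4 := (MulAut.conj y).toMonoidHom
  have hφn : ∀ x, φ (-x) = -φ x := fun x => by
    show y * -x * y⁻¹ = -(y * x * y⁻¹)
    rw [mul_neg, neg_mul]
  have expand : ∀ v v₁ v₂ v₃ v₄, s₄ * v * s₄⁻¹ = v₁ → s₃ * v₁ * s₃⁻¹ = v₂ → s₂ * v₂ * s₂⁻¹ = v₃ →
      s₁ * v₃ * s₁⁻¹ = v₄ → φ v = v₄ := fun v v₁ v₂ v₃ v₄ e1 e2 e3 e4 => by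
    rw [← e4, ← e3, ← e2, ← e1]
    show y * v * y⁻¹ = _
    rw [hy]; group
  -- the images
  have iA : φ A = -(A * (B * D)) := by
    refine expand A (-B) (-(A * (B * C))) (A * (B * (C * D))) _ ?_ ?_ ?_ ?_
    · rw [a₄ A (by simp only [mul_assoc, BA, mul_neg, AA', neg_neg])]
      simp only [mul_assoc, BA, mul_neg, AA']
    · rw [a₃ (-B) (by simp only [mul_assoc, neg_mul, mul_neg, BA', CB, neg_neg])]
      simp only [mul_assoc, mul_neg, CB]
    · rw [a₂ (-(A * (B * C))) (by simp only [mul_assoc, neg_mul, mul_neg, DA', DB', DC, neg_neg])]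
      simp only [mul_assoc, mul_neg, DA', DB', DC, neg_neg]
    · rw [a₁ (A * (B * (C * D))) (by simp only [mul_assoc, DC, CA', CB', mul_neg, neg_neg])]
      simp only [CA', CB', CC', mul_neg]
  have iB : φ B = A := by
    refine expand B A A A _ ?_ (c₃ A ?_) (c₂ A DA.symm) (c₁ A CA.symm)
    · rw [a₄ B (by simp only [mul_assoc, BB, BA', mul_one, neg_neg])]
      simp only [mul_assoc, BB, mul_one]
    · simp only [mul_assoc, CA]
  have iC : φ C = D := by
    refine expand C C C (-(C * D)) _ (c₄ C ?_) (c₃ C ?_) ?_ ?_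
    · simp only [mul_assoc, CA', CB]
    · simp only [mul_assoc, CA']
    · rw [a₂ C (by rw [DC, neg_neg]), DC]
    · rw [a₁ (-(C * D)) (by simp only [mul_assoc, neg_mul, mul_neg, DC, neg_neg])]
      simp only [mul_neg, CC', neg_neg]
  have iD : φ D = A * C := by
    refine expand D D (A * (C * D)) (A * C) _ (c₄ D ?_) ?_ ?_ (c₁ _ ?_)
    · simp only [mul_assoc, DA', DB]
    · rw [a₃ D (by simp only [mul_assoc, DA', DC, mul_neg])]
      simp only [mul_assoc]
    · rw [a₂ (A * (C * D)) (by simp only [mul_assoc, DA', DC', DD, mul_neg, mul_one, neg_neg])]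
      simp only [DA', DC', DD, mul_neg, mul_one, neg_neg]
    · simp only [mul_assoc, CA']
  have key : ∀ v ∈ ({A, B, C, D} : Set G4), φ (φ (φ (φ (φ v)))) = v := by
    rintro v (rfl | rfl | rfl | rfl) <;>
      simp only [map_mul, hφn, iA, iB, iC, iD, mul_assoc, neg_mul, mul_neg, neg_neg, AA, BB, CC, DD, BA, CA, CB, DA,
        DB, DC, AA', BB', CC', DD', BA', CA', CB', DA', DB', DC', mul_one, one_mul]
  have hN : y ∈ Cfsg.Geo.subgroupNormalizer R := by
    refine normalizes hR' hR.negOne ?_ ?_ ?_ ?_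
    · show φ A ∈ R
      rw [iA, ← neg_one_mul]; exact R.mul_mem hR.negOne (R.mul_mem hA (R.mul_mem hB hD))
    · show φ B ∈ R
      rw [iB]; exact hA
    · show φ C ∈ R
      rw [iC]; exact hD
    · show φ D ∈ R
      rw [iD]; exact R.mul_mem hA hC
  have hfix : ∀ v ∈ R, (y ^ 5) * v = v * y ^ 5 := by
    have h5 : ∀ v, φ (φ (φ (φ (φ v)))) = y ^ 5 * v * (y ^ 5)⁻¹ := fun v => by
      show y * (y * (y * (y * (y * v * y⁻¹) * y⁻¹) * y⁻¹) * y⁻¹) * y⁻¹ = _
      simp only [pow_succ, pow_zero, one_mul, _root_.mul_inv_rev, mul_assoc]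
    have hle : closure ({A, B, C, D, -1} : Set G4) ≤ centralizer {y ^ 5} := (closure_le _).2 (by
      rintro x (rfl | rfl | rfl | rfl | rfl) <;> rw [SetLike.mem_coe, mem_centralizer_singleton_iff]
      iterate 4
        have h := key x (by simp)
        rw [h5, mul_inv_eq_iff_eq_mul] at h
        exact h.symm
      simp)
    exact fun v hv => (mem_centralizer_singleton_iff.1 (hle (hgen v hv))).symm
  obtain ⟨d, hd⟩ := hR.irred _ fun v hv => by rw [← Units.val_mul, hfix v hv, Units.val_mul]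
  refine ⟨y, d, hN, hd, fun c hc => ?_⟩
  have h : φ B = B := by
    show y * B * y⁻¹ = B
    rw [mul_inv_eq_iff_eq_mul]
    exact Units.ext (by rw [Units.val_mul, Units.val_mul, hc, Matrix.smul_mul, Matrix.mul_smul, one_mul, mul_one])
  rw [iB] at h
  rw [← h, AA] at BA
  exact neg_one_ne h2 BA.symm

/-- A normalising element becomes symplectic after scaling. -/
theorem exists_multiplier {R : Subgroup G4} (hR : Facts R) (hRf : ∀ u ∈ R, ∀ a b, f4 ((u : M4) *ᵥ a) ((u : M4) *ᵥ b) = f4 a b)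
    {y : G4} (hy : y ∈ Cfsg.Geo.subgroupNormalizer R) :
    ∃ c : F, ∀ a b, f4 ((y : M4) *ᵥ a) ((y : M4) *ᵥ b) = c * f4 a b := by
  set Y := (y : M4)
  set J := Matrix.J (Fin 2) F
  set P : M4 := -((Yᵀ * J * Y) * J)ᵀ with hP
  have hJJ : J * J = -1 := Matrix.J_squared (Fin 2) F
  have hPf : ∀ a b, f4 (P *ᵥ a) b = f4 (Y *ᵥ a) (Y *ᵥ b) := fun a b => by
    show (P *ᵥ a) ⬝ᵥ (J *ᵥ b) = (Y *ᵥ a) ⬝ᵥ (J *ᵥ (Y *ᵥ b))
    have e : Pᵀ * J = Yᵀ * J * Y := by
      rw [hP, Matrix.transpose_neg, Matrix.transpose_transpose, neg_mul, mul_assoc _ J J, hJJ, mul_neg_one, neg_neg]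
    have hh : ∀ (M N : M4) (a b : Fin 2 ⊕ Fin 2 → F), (M *ᵥ a) ⬝ᵥ (N *ᵥ b) = a ⬝ᵥ ((Mᵀ * N) *ᵥ b) := fun M N a b => by
      rw [Matrix.dotProduct_mulVec, ← Matrix.vecMul_transpose, Matrix.vecMul_vecMul, ← Matrix.dotProduct_mulVec]
    rw [Matrix.mulVec_mulVec, hh, hh, e, mul_assoc]
  obtain ⟨c, hc⟩ := hR.irred P fun u hu => Matrix.ext_iff_mulVec.2 fun a => by
    refine SpGeom.ext_form fun b => ?_
    have hb : b = (u : M4) *ᵥ (((u⁻¹ : G4) : M4) *ᵥ b) := by
      rw [Matrix.mulVec_mulVec, ← Units.val_mul, mul_inv_cancel, Units.val_one, Matrix.one_mulVec]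
    set w := y * u * y⁻¹
    have hw : w ∈ R := (Subgroup.mem_normalizer_iff.1 (show y ∈ Subgroup.normalizer (R : Set G4) from hy) u).1 hu
    have hwv : ∀ v, (w : M4) *ᵥ (Y *ᵥ v) = Y *ᵥ ((u : M4) *ᵥ v) := fun v => by
      rw [Matrix.mulVec_mulVec, ← Units.val_mul, show w * y = y * u by simp [w], Units.val_mul, ← Matrix.mulVec_mulVec]
    rw [← Matrix.mulVec_mulVec, ← Matrix.mulVec_mulVec, hb, hPf, hRf u hu, hPf, ← hwv, ← hwv, hRf w hw]
  exact ⟨c, fun a b => by rw [← hPf, hc, Matrix.smul_mulVec, Matrix.one_mulVec, SpGeom.form_smul_left]⟩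

end CfsgLib.HeisSp
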