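import Cfsg.Agent.HeisSp.Facts

/-!
Elements of odd prime order normalising the group of symplectic type of order `2 ^ 5`.
-/

set_option autoImplicit false

namespace CfsgLib.HeisSp

open Matrix Subgroup

variable {F : Type*} [Field F]

local notation "M4" => Matrix (Fin 2 ⊕ Fin 2) (Fin 2 ⊕ Fin 2) F
local notation "G4" => GL (Fin 2 ⊕ Fin 2) F

theorem trace_one_four : (1 : M4).trace = 4 := by
  rw [Matrix.trace_one, Fintype.card_sum, Fintype.card_fin]; norm_num

variable {R : Subgroup (GL (Fin 2 ⊕ Fin 2) F)}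

theorem pow_mem_conj {y : G4} (hN : ∀ v ∈ R, y * v * y⁻¹ ∈ R) (n : ℕ) : ∀ v ∈ R, y ^ n * v * (y ^ n)⁻¹ ∈ R := by
  induction n with
  | zero => intro v hv; simpa using hv
  | succ n ih =>
    intro v hv
    have := hN _ (ih v hv)
    convert this using 1
    rw [pow_succ']; group

/-- A fixed coset is fixed pointwise. -/
theorem coset_fixed {y u : G4} {r : ℕ} (hr : r.Prime) (hr2 : r ≠ 2) (hy : y ^ r = 1) {m : ℕ} (hm : ¬ r ∣ m)
    (h : y ^ m * u * (y ^ m)⁻¹ = u ∨ y ^ m * u * (y ^ m)⁻¹ = -u) : y * u = u * y := by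
  set z := y ^ m
  have h2 : Commute (z * z) u := by
    have e : z * z * u * (z * z)⁻¹ = u := by
      calc z * z * u * (z * z)⁻¹ = z * (z * u * z⁻¹) * z⁻¹ := by group
        _ = u := by
          rcases h with h | h <;> rw [h]
          · exact h
          · rw [mul_neg, neg_mul, h, neg_neg]
    exact mul_inv_eq_iff_eq_mul.1 e
  obtain ⟨a, ha⟩ : ∃ a : ℕ, (m * 2) * a % r = 1 := by
    have hc : ¬ r ∣ m * 2 := fun hd => by
      rcases hr.dvd_mul.1 hd with h | h
      · exact hm h
      · exact hr2 ((Nat.prime_dvd_prime_iff_eq hr Nat.prime_two).1 h)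
    obtain ⟨a, -, ha⟩ := Nat.exists_mul_mod_eq_one_of_coprime ((hr.coprime_iff_not_dvd.2 hc).symm) hr.one_lt
    exact ⟨a, ha⟩
  have h3 := h2.pow_left a
  rw [← sq, ← pow_mul, ← pow_mul, ← mul_assoc, ← Nat.mod_add_div (m * 2 * a) r, ha, pow_add, pow_mul, hy,
    one_pow, pow_one, mul_one] at h3
  exact h3

/-- Congruence for the fixed points in an invariant subgroup. -/
theorem card_modEq {C : Subgroup G4} [Finite C] {y : G4} {r : ℕ} [Fact r.Prime]
    (hN : ∀ v ∈ C, y * v * y⁻¹ ∈ C) (hy : y ^ r = 1) :
    Nat.card C ≡ Nat.card ((centralizer {y}).subgroupOf C) [MOD r] := by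
  classical
  haveI : Fintype C := Fintype.ofFinite C
  let f : Function.End C := fun t => ⟨y * t * y⁻¹, hN _ t.2⟩
  have hpow : ∀ (k : ℕ) (t : C), ((f ^ k) t : G4) = y ^ k * t * (y ^ k)⁻¹ := by
    intro k
    induction k with
    | zero => intro t; simp; rfl
    | succ k ih =>
      intro t
      rw [pow_succ']
      show y * ((f ^ k) t : G4) * y⁻¹ = _
      rw [ih, pow_succ']
      group
  have hfr : f ^ (r ^ 1) = 1 := funext fun t => Subtype.ext (by rw [hpow, pow_one, hy]; simp; rfl)
  have hmod := Equiv.Perm.card_fixedPoints_modEq hfr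
  rw [← Nat.card_eq_fintype_card, ← Nat.card_eq_fintype_card] at hmod
  refine hmod.trans (congrArg (· % r) (Nat.card_congr (Equiv.subtypeEquivRight fun t => ?_)))
  show f t = t ↔ (t : G4) ∈ centralizer {y}
  rw [mem_centralizer_singleton_iff, Subtype.ext_iff]
  show y * t * y⁻¹ = t ↔ _
  rw [mul_inv_eq_iff_eq_mul]
  exact eq_comm

variable (hR : Facts R)
include hR

/-- Non-central elements have trace zero. -/
theorem trace_eq_zero (h2 : (2 : F) ≠ 0) {u : G4} (hu : u ∈ R) (h1 : u ≠ 1) (h1' : u ≠ -1) : (u : M4).trace = 0 := by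
  obtain ⟨v, hv, hvu⟩ : ∃ v ∈ R, v * u ≠ u * v := by
    by_contra h
    push Not at h
    rcases hR.scal u hu fun v hv => (h v hv).symm with h | h
    exacts [h1 h, h1' h]
  have h : (v : M4) * u = -((u : M4) * v) := by
    rw [← Units.val_mul, (hR.sign u hu v hv).resolve_left hvu]; rfl
  have e : (u : M4).trace = ((v : M4) * u * (v⁻¹ : G4)).trace := (Matrix.trace_units_conj v _).symm
  rw [h, neg_mul, mul_assoc, ← Units.val_mul, mul_inv_cancel, Units.val_one, mul_one, Matrix.trace_neg] at e
  have : (2 : F) * (u : M4).trace = 0 := by linear_combination e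
  exact (mul_eq_zero.1 this).resolve_left h2

theorem commutator_trace (h2 : (2 : F) ≠ 0) {y u : G4} (hN : ∀ v ∈ R, y * v * y⁻¹ ∈ R) (hu : u ∈ R) {r : ℕ}
    (hr : r.Prime) (hr2 : r ≠ 2) (hy : y ^ r = 1) (hne : y * u ≠ u * y) {m : ℕ} (hm : ¬ r ∣ m) :
    ((y ^ m * u * (y ^ m)⁻¹ * u⁻¹ : G4) : M4).trace = 0 := by
  refine trace_eq_zero hR h2 (R.mul_mem (pow_mem_conj hN m u hu) (R.inv_mem hu)) (fun h => hne ?_) fun h => hne ?_
  · exact coset_fixed hr hr2 hy hm (Or.inl (mul_inv_eq_one.1 h))
  · exact coset_fixed hr hr2 hy hm (Or.inr (by rw [mul_inv_eq_iff_eq_mul.1 h, neg_one_mul]))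

/-- The centraliser of `y` in `R`. -/
theorem trace_identity (h2 : (2 : F) ≠ 0) {y : G4} (hN : ∀ v ∈ R, y * v * y⁻¹ ∈ R) {r : ℕ}
    (hr : r.Prime) (hr2 : r ≠ 2) (hy : y ^ r = 1) :
    8 * ((y : M4).trace * ((y⁻¹ : G4) : M4).trace) = 4 * (Nat.card ((centralizer {y}).subgroupOf R) : F) := by
  classical
  haveI : Finite R := Nat.finite_of_card_ne_zero (by rw [hR.card]; norm_num)
  haveI : Fintype R := Fintype.ofFinite R
  let M : M4 := ∑ u : R, ((u : G4) : M4) * (y : M4) * (((u : G4)⁻¹ : G4) : M4)
  obtain ⟨c, hc⟩ := hR.irred M fun v hv => by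
    have h1 : ((⟨v, hv⟩ : R) : G4) = v := rfl
    have h3 : (v : M4) * M = M * (v : M4) := by
      simp only [M, Finset.mul_sum, Finset.sum_mul]
      refine Fintype.sum_equiv (Equiv.mulLeft (⟨v, hv⟩ : R)) _ _ fun u => ?_
      simp only [Equiv.coe_mulLeft, Subgroup.coe_mul, h1, _root_.mul_inv_rev, Units.val_mul]
      simp only [mul_assoc]
      rw [← Units.val_mul v⁻¹ v, inv_mul_cancel, Units.val_one, mul_one]
    exact h3.symm
  have htr : M.trace = 32 * (y : M4).trace := by
    simp only [M, Matrix.trace_sum]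
    rw [Finset.sum_congr rfl (fun (u : R) _ => show (((u : G4) : M4) * (y : M4) *
      (((u : G4)⁻¹ : G4) : M4)).trace = (y : M4).trace from Matrix.trace_units_conj (u : G4) _),
      Finset.sum_const, Finset.card_univ, ← Nat.card_eq_fintype_card, hR.card, nsmul_eq_mul]
    norm_num
  rw [hc, Matrix.trace_smul, trace_one_four, smul_eq_mul] at htr
  have h4 : (4 : F) ≠ 0 := by rw [show (4 : F) = 2 * 2 by norm_num]; exact mul_ne_zero h2 h2
  have hc8 : c = 8 * (y : M4).trace := mul_right_cancel₀ h4 (by linear_combination htr)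
  have hL : (M * ((y⁻¹ : G4) : M4)).trace = 8 * ((y : M4).trace * ((y⁻¹ : G4) : M4).trace) := by
    rw [hc, Matrix.smul_mul, one_mul, Matrix.trace_smul, smul_eq_mul, hc8]
    ring
  have hterm : ∀ u : R, (((u : G4) : M4) * (y : M4) * (((u : G4)⁻¹ : G4) : M4) *
      ((y⁻¹ : G4) : M4)).trace = if u ∈ (centralizer {y}).subgroupOf R then (4 : F) else 0 := by
    intro u
    have hmem : u ∈ (centralizer {y}).subgroupOf R ↔ (u : G4) * y = y * u := by
      rw [mem_subgroupOf, mem_centralizer_singleton_iff]
    rw [← Units.val_mul, ← Units.val_mul, ← Units.val_mul]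
    split_ifs with h
    · rw [hmem.1 h, mul_inv_cancel_right, mul_inv_cancel, Units.val_one, trace_one_four]
    · have hne : y * (u : G4)⁻¹ ≠ (u : G4)⁻¹ * y := fun he =>
        h (hmem.2 ((Commute.inv_right_iff.1 (show Commute y (u : G4)⁻¹ from he)).symm))
      have := commutator_trace hR h2 hN (R.inv_mem u.2) hr hr2 hy hne (m := 1) hr.not_dvd_one
      rw [pow_one, inv_inv, Units.val_mul _ (u : G4), Matrix.trace_mul_comm, ← Units.val_mul] at this
      rw [show (u : G4) * y * (u : G4)⁻¹ * y⁻¹ = u * (y * (u : G4)⁻¹ * y⁻¹) by group]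
      exact this
  rw [← hL]
  simp only [M, Finset.sum_mul, Matrix.trace_sum, hterm]
  rw [← Finset.sum_filter, Finset.sum_const, nsmul_eq_mul, mul_comm]
  congr 2
  rw [Nat.card_eq_fintype_card, Fintype.card_subtype]

/-- Elements with `y + y⁻¹` scalar of prime order at least five centralise `R`. -/
theorem quad_scalar (h2 : (2 : F) ≠ 0) {y : G4} (hN : ∀ v ∈ R, y * v * y⁻¹ ∈ R) {r : ℕ}
    (hr : r.Prime) (hr5 : 5 ≤ r) (hy : y ^ r = 1) {t : F}
    (ht : (y : M4) + ((y⁻¹ : G4) : M4) = t • 1) :
    ∃ c : F, (y : M4) = c • 1 := by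
  refine hR.irred _ fun u hu => ?_
  by_contra hne
  have hne' : y * u ≠ u * y := fun h => hne (by rw [← Units.val_mul, h, Units.val_mul])
  set z := ((y⁻¹ : G4) : M4) with hz
  have hYZ : (y : M4) * z = 1 := by rw [hz, ← Units.val_mul, mul_inv_cancel, Units.val_one]
  have hZY : z * (y : M4) = 1 := by rw [hz, ← Units.val_mul, inv_mul_cancel, Units.val_one]
  have hY : (y : M4) = t • 1 - z := by rw [← ht]; abel
  have hsq : (y : M4) * y = t • (y : M4) - 1 := by
    conv_lhs => rw [hY]
    rw [sub_mul, Matrix.smul_mul, one_mul, ← hY, hZY]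
  have hzsq : z * z = t • z - 1 := by
    have : z = t • 1 - (y : M4) := by rw [← ht]; abel
    conv_lhs => rw [this]
    rw [sub_mul, Matrix.smul_mul, one_mul, ← this, hYZ]
  set s : F := t * t - 2 with hs
  set U := (u : M4)
  have e1 : ∀ w : M4, (y : M4) * ((y : M4) * w) = t • ((y : M4) * w) - w := fun w => by
    rw [← mul_assoc, hsq, sub_mul, Matrix.smul_mul, one_mul]
  have rel : (y : M4) * ((y : M4) * ((y : M4) * (U * (z * (z * z))))) - (s + 1) • ((y : M4) * ((y : M4) * (U * (z * z)))) +
      (s + 1) • ((y : M4) * (U * z)) - U = 0 := by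
    simp only [e1, hzsq, mul_sub, Matrix.mul_smul, mul_one, mul_assoc, smul_sub, smul_smul, hs]
    match_scalars <;> ring
  have htr := congrArg (fun w : M4 => (w * ((u⁻¹ : G4) : M4)).trace) rel
  simp only [sub_mul, add_mul, Matrix.smul_mul, Matrix.trace_sub, Matrix.trace_add, Matrix.trace_smul, zero_mul,
    Matrix.trace_zero] at htr
  have hz0 : ∀ m : ℕ, 1 ≤ m → m ≤ 3 → ((y ^ m * u * (y ^ m)⁻¹ * u⁻¹ : G4) : M4).trace = 0 := fun m hm1 hm3 =>
    commutator_trace hR h2 hN hu hr (by omega) hy hne' (fun h => by have := Nat.le_of_dvd (by omega) h; omega)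
  have t1 := hz0 1 le_rfl (by norm_num)
  have t2 := hz0 2 (by norm_num) (by norm_num)
  have t3 := hz0 3 (by norm_num) le_rfl
  simp only [pow_succ, pow_zero, one_mul, _root_.mul_inv_rev, Units.val_mul, mul_assoc, ← hz] at t1 t2 t3
  simp only [mul_assoc] at htr
  have t0 : (U * ((u⁻¹ : G4) : M4)).trace = 4 := by
    rw [← Units.val_mul, mul_inv_cancel, Units.val_one, trace_one_four]
  rw [t1, t2, t3, t0] at htr
  simp at htr
  exact h2 (by
    have : (2 : F) * 2 = 0 := by linear_combination htr
    exact (mul_eq_zero.1 this).elim id id)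

/-- A centraliser of everything is scalar; otherwise its order is at most sixteen. -/
theorem scalar_or_le (y : G4) :
    (∃ c : F, (y : M4) = c • 1) ∨
      (Nat.card ((centralizer {y}).subgroupOf R) ∣ 16 ∧ 2 ∣ Nat.card ((centralizer {y}).subgroupOf R)) := by
  classical
  haveI : Finite R := Nat.finite_of_card_ne_zero (by rw [hR.card]; norm_num)
  set K := (centralizer {y}).subgroupOf R with hK
  by_cases htop : K = ⊤
  · refine Or.inl (hR.irred _ fun u hu => ?_)
    have : (⟨u, hu⟩ : R) ∈ K := htop ▸ mem_top _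
    rw [hK, mem_subgroupOf, mem_centralizer_singleton_iff] at this
    rw [← Units.val_mul, ← Units.val_mul, this]
  refine Or.inr ⟨?_, ?_⟩
  · have hd : Nat.card K ∣ 2 ^ 5 := by
      rw [show (2 : ℕ) ^ 5 = 32 by norm_num, ← hR.card]; exact K.card_subgroup_dvd_card
    obtain ⟨e, he, hKe⟩ := (Nat.dvd_prime_pow Nat.prime_two).1 hd
    have hne : e ≠ 5 := fun h => htop (Subgroup.eq_top_of_card_eq K (by rw [hKe, h, hR.card]; norm_num))
    rw [hKe, show (16 : ℕ) = 2 ^ 4 by norm_num]
    exact Nat.pow_dvd_pow 2 (by omega)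
  · by_cases h1 : (-1 : G4) = 1
    · exfalso
      have h32 := hR.card
      have hn : ∀ x : G4, -x = x := fun x => by rw [← neg_one_mul, h1, one_mul]
      have hall : ∀ v : R, v = 1 := fun v => Subtype.ext (by
        rcases hR.scal v v.2 (fun w hw => by rcases hR.sign v v.2 w hw with h | h
                                             · exact h.symm
                                             · rw [h, hn]) with h | h
        · exact h
        · exact h.trans h1)
      haveI : Subsingleton R := ⟨fun a b => (hall a).trans (hall b).symm⟩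
      rw [Nat.card_of_subsingleton (1 : R)] at h32
      omega
    let e : K := ⟨⟨-1, hR.negOne⟩, by rw [hK, mem_subgroupOf, mem_centralizer_singleton_iff]; simp⟩
    have he : orderOf e = 2 := orderOf_eq_prime (Subtype.ext (Subtype.ext (by simp [e])))
      fun h => h1 (congrArg (fun a : K => ((a : R) : G4)) h)
    have := orderOf_dvd_natCard e
    rwa [he] at this

/-- No element of prime order at least seven normalises `R`, except scalars. -/
theorem seven_scalar (h2 : (2 : F) ≠ 0) {y : G4} (hN : ∀ v ∈ R, y * v * y⁻¹ ∈ R) {r : ℕ} [hr : Fact r.Prime]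
    (hr7 : 7 ≤ r) (hy : y ^ r = 1) : ∃ c : F, (y : M4) = c • 1 := by
  classical
  haveI : Finite R := Nat.finite_of_card_ne_zero (by rw [hR.card]; norm_num)
  rcases scalar_or_le hR y with h | ⟨h16, heven⟩
  · exact h
  exfalso
  set K := (centralizer {y}).subgroupOf R with hK
  have hmod := card_modEq hN hy
  rw [← hK, hR.card] at hmod
  have hle := Nat.le_of_dvd (by norm_num) h16
  have hdvd : r ∣ 32 - Nat.card K := (Nat.modEq_iff_dvd' (by omega)).1 hmod.symm
  have hbad : ∀ n, n ∈ [30, 24, 16, 12] → ¬ r ∣ n := by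
    intro n hn hd
    have hp := hr.out
    have hle := Nat.le_of_dvd (by simp at hn; omega) hd
    simp at hn
    rcases hn with rfl | rfl | rfl | rfl <;> interval_cases r <;> revert hp hd <;> decide
  have hK4 : Nat.card K = 4 := by
    have hd : Nat.card K ∈ Nat.divisors 16 := Nat.mem_divisors.2 ⟨h16, by norm_num⟩
    rw [show Nat.divisors 16 = {1, 2, 4, 8, 16} by decide] at hd
    simp only [Finset.mem_insert, Finset.mem_singleton] at hd
    rcases hd with h | h | h | h | h <;> rw [h] at heven hdvd
    · omega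
    · exact absurd hdvd (hbad 30 (by simp))
    · exact h
    · exact absurd hdvd (hbad 24 (by simp))
    · exact absurd hdvd (hbad 16 (by simp))
  obtain ⟨⟨u, hu⟩, h1, h1'⟩ : ∃ u : K, ((u : R) : G4) ≠ 1 ∧ ((u : R) : G4) ≠ -1 := by
    by_contra hno
    push Not at hno
    have hcov : ∀ u : K, ∃ b : Bool, ((u : R) : G4) = if b then 1 else -1 := fun u => by
      by_cases h : ((u : R) : G4) = 1
      · exact ⟨true, by simpa using h⟩
      · exact ⟨false, by simpa using hno u h⟩
    choose b hb using hcov
    have := Nat.card_le_card_of_injective b fun u v h => Subtype.ext (Subtype.ext (by rw [hb u, hb v, h]))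
    rw [hK4] at this
    simp at this
  rw [hK, mem_subgroupOf, mem_centralizer_singleton_iff] at hu
  set U := (u : G4) with hUd
  set C := centralizer {U} ⊓ R with hC
  have hCN : ∀ v ∈ C, y * v * y⁻¹ ∈ C := fun v hv => by
    refine mem_inf.2 ⟨mem_centralizer_singleton_iff.2 ?_, hN v hv.2⟩
    have hv' := mem_centralizer_singleton_iff.1 hv.1
    have hcom : y⁻¹ * U = U * y⁻¹ := (Commute.inv_left (show Commute y U from hu.symm)).eq
    calc y * v * y⁻¹ * U = y * (v * U) * y⁻¹ := by rw [mul_assoc, hcom]; group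
      _ = y * (U * v) * y⁻¹ := by rw [hv']
      _ = U * (y * v * y⁻¹) := by rw [← mul_assoc y U, show y * U = U * y from hu.symm]; group
  have hle' : C ≤ R := inf_le_right
  haveI : Finite C := Finite.of_injective _ (Subgroup.inclusion_injective hle')
  have hidx : (C.subgroupOf R).index = 2 := by
    obtain ⟨v, hv, hvU⟩ : ∃ v ∈ R, v * U ≠ U * v := by
      by_contra h
      push Not at h
      rcases hR.scal U u.2 fun v hv => (h v hv).symm with h | h
      exacts [h1 h, h1' h]
    have hmem : ∀ w : R, w ∈ C.subgroupOf R ↔ (w : G4) * U = U * w := fun w => by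
      rw [mem_subgroupOf, hC, mem_inf, mem_centralizer_singleton_iff]
      exact ⟨fun h => h.1, fun h => ⟨h, w.2⟩⟩
    refine Subgroup.index_eq_two_iff.2 ⟨⟨v, hv⟩, fun b => ?_⟩
    rw [hmem, hmem]
    have hv' : v * U = -(U * v) := (hR.sign U u.2 v hv).resolve_left hvU
    rcases hR.sign U u.2 b b.2 with hb | hb
    · refine Or.inr ⟨hb, fun h => hvU ?_⟩
      rw [Subgroup.coe_mul, mul_assoc] at h
      change (b : G4) * (v * U) = U * (b * v) at h
      rw [← mul_assoc U, ← hb, mul_assoc] at h
      exact mul_left_cancel h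
    · refine Or.inl ⟨?_, fun h => ?_⟩
      · rw [Subgroup.coe_mul]
        show (b : G4) * v * U = U * ((b : G4) * v)
        rw [mul_assoc, hv', mul_neg, ← mul_assoc, hb, neg_mul, neg_neg, mul_assoc]
      · exact neg_ne_self h2 _ (hb.symm.trans h)
  have hC16 : Nat.card C = 16 := by
    have h := Subgroup.index_mul_card (C.subgroupOf R)
    rw [hidx, hR.card, Nat.card_congr (Subgroup.subgroupOfEquivOfLe hle').toEquiv] at h
    omega
  have hmodC := card_modEq hCN hy
  set K' := (centralizer {y}).subgroupOf C with hK'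
  have hcard : Nat.card K' = 4 := by
    -- the centraliser of `y` commutes with `u`
    have hUK : ∀ v : K, ((v : R) : G4) ∈ C := fun v => by
      refine mem_inf.2 ⟨mem_centralizer_singleton_iff.2 ?_, v.1.2⟩
      rcases hR.sign U u.2 _ v.1.2 with h | h
      · exact h
      · exfalso
        -- four elements `±1, ±u` exhaust `K`
        let g : Fin 5 → K := fun n => if n = 4 then v else
          ![⟨⟨1, R.one_mem⟩, by rw [hK, mem_subgroupOf, mem_centralizer_singleton_iff]; simp⟩,
            ⟨⟨-1, hR.negOne⟩, by rw [hK, mem_subgroupOf, mem_centralizer_singleton_iff]; simp⟩,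
            ⟨u, by rw [hK, mem_subgroupOf, mem_centralizer_singleton_iff]; exact hu⟩,
            ⟨⟨-U, by rw [← neg_one_mul]; exact R.mul_mem hR.negOne u.2⟩, by
              rw [hK, mem_subgroupOf, mem_centralizer_singleton_iff]
              show -U * y = y * -U
              rw [neg_mul, hu, mul_neg]⟩, v] n
        have hv1 : ((v : R) : G4) ≠ 1 ∧ ((v : R) : G4) ≠ -1 ∧ ((v : R) : G4) ≠ U ∧ ((v : R) : G4) ≠ -U := by
          refine ⟨fun e => ?_, fun e => ?_, fun e => ?_, fun e => ?_⟩ <;> rw [e] at h
          all_goals try simp at h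
          all_goals first | exact neg_ne_self h2 _ h.symm | exact neg_ne_self h2 _ h
        have hn1 := neg_one_ne (F := F) h2
        have hg : Function.Injective g := by
          intro i j hij
          have h' := congrArg (fun a : K => ((a : R) : G4)) hij
          fin_cases i <;> fin_cases j <;> simp [g, -OneMemClass.coe_eq_one, -SetLike.coe_eq_coe, U] at h' <;> first
            | rfl
            | exact absurd h' hn1
            | exact absurd h'.symm hn1
            | exact absurd h' h1
            | exact absurd h'.symm h1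
            | exact absurd h' h1'
            | exact absurd h'.symm h1'
            | exact absurd h' hv1.1
            | exact absurd h'.symm hv1.1
            | exact absurd h' hv1.2.1
            | exact absurd h'.symm hv1.2.1
            | exact absurd h' hv1.2.2.1
            | exact absurd h'.symm hv1.2.2.1
            | exact absurd h' hv1.2.2.2
            | exact absurd h'.symm hv1.2.2.2
            | exact absurd h' (neg_ne_self h2 _)
            | exact absurd h'.symm (neg_ne_self h2 _)
            | exact h1' (neg_eq_iff_eq_neg.1 h')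
            | exact h1' (neg_eq_iff_eq_neg.1 h'.symm)
            | exact absurd (show U = -1 by rw [← h', neg_neg]) h1'
            | exact absurd (show U = -1 by rw [h', neg_neg]) h1'
        have := Nat.card_le_card_of_injective g hg
        rw [Nat.card_fin, hK4] at this
        omega
    rw [← hK4]
    refine Nat.card_congr
      { toFun := fun w => ⟨⟨(w.1 : G4), hle' w.1.2⟩, by rw [hK, mem_subgroupOf]; exact mem_subgroupOf.1 w.2⟩
        invFun := fun v => ⟨⟨((v : R) : G4), hUK v⟩, by rw [hK', mem_subgroupOf]; exact mem_subgroupOf.1 v.2⟩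
        left_inv := fun w => rfl
        right_inv := fun v => rfl }
  rw [hcard, hC16] at hmodC
  exact hbad 12 (by simp) ((Nat.modEq_iff_dvd' (by norm_num : 4 ≤ 16)).1 hmodC.symm)

/-- An element of order three fixes a non-central element. -/
theorem three_fixes (h2 : (2 : F) ≠ 0) (H : Gens R) {y : G4} (hN : ∀ v ∈ R, y * v * y⁻¹ ∈ R) (hy : y ^ 3 = 1) :
    Nat.card ((centralizer {y}).subgroupOf R) ≠ 2 := by
  classical
  intro hK2
  haveI : Finite R := Nat.finite_of_card_ne_zero (by rw [hR.card]; norm_num)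
  set K := (centralizer {y}).subgroupOf R with hK
  have hn1 := neg_one_ne (F := F) h2
  have hcent : ∀ v ∈ R, y * v = v * y → v = 1 ∨ v = -1 := by
    intro v hv hc
    by_contra hno
    push Not at hno
    let g : Fin 3 → K := ![⟨⟨1, R.one_mem⟩, by rw [hK, mem_subgroupOf, mem_centralizer_singleton_iff]; simp⟩,
      ⟨⟨-1, hR.negOne⟩, by rw [hK, mem_subgroupOf, mem_centralizer_singleton_iff]; simp⟩,
      ⟨⟨v, hv⟩, by rw [hK, mem_subgroupOf, mem_centralizer_singleton_iff]; exact hc.symm⟩]
    have hg : Function.Injective g := by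
      intro i j hij
      have h' := congrArg (fun a : K => ((a : R) : G4)) hij
      fin_cases i <;> fin_cases j <;> simp [g] at h' <;> first
        | rfl
        | exact absurd h' hn1
        | exact absurd h'.symm hn1
        | exact absurd h' hno.1
        | exact absurd h'.symm hno.1
        | exact absurd h' hno.2
        | exact absurd h'.symm hno.2
    have := Nat.card_le_card_of_injective g hg
    rw [Nat.card_fin, hK2] at this
    omega
  set v := H.A with hv
  set w := y * v * y⁻¹ with hw
  set w' := y * w * y⁻¹ with hw'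
  have hvR : v ∈ R := H.hA
  have hwR : w ∈ R := hN v hvR
  have hw'R : w' ∈ R := hN w hwR
  have hv2 : v * v = 1 := H.AA
  have hw2 : w * w = 1 := by rw [hw]; calc _ = y * (v * v) * y⁻¹ := by group
                                    _ = 1 := by rw [hv2]; group
  have hw'2 : w' * w' = 1 := by rw [hw']; calc _ = y * (w * w) * y⁻¹ := by group
                                        _ = 1 := by rw [hw2]; group
  have hw'v : y * w' * y⁻¹ = v := by
    rw [hw', hw, show y * (y * (y * v * y⁻¹) * y⁻¹) * y⁻¹ = y ^ 3 * v * (y ^ 3)⁻¹ by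
      simp only [pow_succ, pow_zero, one_mul, _root_.mul_inv_rev, mul_assoc], hy]
    group
  obtain ⟨hv1, hv1'⟩ := ne_of_anti h2 H.BA
  have hP : v * w * w' = 1 ∨ v * w * w' = -1 := by
    refine hcent _ (R.mul_mem (R.mul_mem hvR hwR) hw'R) (coset_fixed Nat.prime_three (by norm_num) hy
      (m := 1) (by norm_num) ?_)
    have e : y ^ 1 * (v * w * w') * (y ^ 1)⁻¹ = w * w' * v := by
      calc y ^ 1 * (v * w * w') * (y ^ 1)⁻¹ = (y * v * y⁻¹) * (y * w * y⁻¹) * (y * w' * y⁻¹) := by group
        _ = w * w' * v := by rw [hw'v, ← hw, ← hw']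
    rw [e]
    rcases hR.sign v hvR _ (R.mul_mem hwR hw'R) with h | h
    · left; rw [h]; simp only [hw, hw', mul_assoc]
    · right; rw [h]; simp only [hw, hw', mul_assoc]
  have hwp : w' = w * v ∨ w' = -(w * v) := by
    rcases hP with h | h
    · left
      calc w' = w * (v * (v * w * w')) := by
            rw [show v * (v * w * w') = v * v * (w * w') by group, hv2, one_mul, ← mul_assoc, hw2, one_mul]
        _ = w * v := by rw [h, mul_one]
    · right
      calc w' = w * (v * (v * w * w')) := by
            rw [show v * (v * w * w') = v * v * (w * w') by group, hv2, one_mul, ← mul_assoc, hw2, one_mul]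
        _ = -(w * v) := by rw [h, mul_neg_one, mul_neg]
  have hwv : w * v * (w * v) = 1 := by
    rcases hwp with h | h <;> rw [h] at hw'2
    · exact hw'2
    · rwa [neg_mul_neg] at hw'2
  have hcomm : v * w = w * v := by
    calc v * w = w * w * (v * w) * (v * v) := by rw [hw2, hv2, one_mul, mul_one]
      _ = w * (w * v * (w * v)) * v := by group
      _ = w * v := by rw [hwv, mul_one]
  have hnc : y * v ≠ v * y := fun h => (hcent v hvR h).elim hv1 hv1'
  rcases hR.minus v hvR w hwR hv2 hw2 hcomm hv1 hv1' with h | h | h | h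
  · exact hv1 (conj_eq_one_iff.1 h)
  · refine hv1' ?_
    rw [hw, mul_inv_eq_iff_eq_mul, neg_one_mul, ← mul_neg_one] at h
    exact mul_left_cancel h
  · exact hnc (coset_fixed Nat.prime_three (by norm_num) hy (m := 1) (by norm_num)
      (Or.inl (by rw [pow_one]; exact h)))
  · exact hnc (coset_fixed Nat.prime_three (by norm_num) hy (m := 1) (by norm_num)
      (Or.inr (by rw [pow_one]; exact h)))

/-- In characteristic three a transvection normalises only trivially. -/
theorem transvection_scalar (h2 : (2 : F) ≠ 0) (h3 : (3 : F) = 0) {y : G4} (hN : ∀ v ∈ R, y * v * y⁻¹ ∈ R)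
    (hy : y ^ 3 = 1) {a b : Fin 2 ⊕ Fin 2 → F} (hba : b ⬝ᵥ a = 0) (hyv : (y : M4) = 1 + Matrix.vecMulVec a b) :
    ∃ c : F, (y : M4) = c • 1 := by
  classical
  set N := Matrix.vecMulVec a b with hNd
  have hNN : N * N = 0 := by rw [hNd, Matrix.vecMulVec_mul_vecMulVec, hba, zero_smul, Matrix.vecMulVec_zero]
  let c : G4 → F := fun u => b ⬝ᵥ ((u : M4) *ᵥ a)
  have hNUN : ∀ u : G4, N * (u : M4) * N = c u • N := fun u => by
    rw [mul_assoc, hNd, Matrix.mul_vecMulVec, Matrix.vecMulVec_mul_vecMulVec, Matrix.vecMulVec_smul]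
  have hinv : ((y⁻¹ : G4) : M4) = 1 - N := Units.inv_eq_of_mul_eq_one_right (by
    rw [hyv]
    simp only [add_mul, mul_sub, one_mul, mul_one, hNN]; abel)
  let A : ℕ → G4 → G4 := fun m u => y ^ m * u * (y ^ m)⁻¹
  have hsum : ∀ u : G4, (A 0 u : M4) + (A 1 u : M4) + (A 2 u : M4) = c u • N := fun u => by
    simp only [A, pow_zero, pow_one, sq, one_mul, inv_one, mul_one, _root_.mul_inv_rev, Units.val_mul, hinv, hyv]
    have e : (u : M4) + (1 + N) * u * (1 - N) + (1 + N) * (1 + N) * u * ((1 - N) * (1 - N)) =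
        (3 : F) • ((u : M4) + N * u - u * N) - (5 : F) • (N * u * N) + (-2 : F) • (N * u * (N * N)) +
          (2 : F) • ((N * N) * u * N) + (-1 : F) • ((N * N) * u) + (-1 : F) • (u * (N * N)) +
          (2 : F) • (N * N * u) + (2 : F) • (u * (N * N)) + (4 : F) • (N * u * (N * N)) + (-4 : F) • (N * N * u * N) +
          (N * N) * u * (N * N) := by
      simp only [add_mul, mul_add, sub_mul, mul_sub, one_mul, mul_one, mul_assoc]
      match_scalars <;> ring
    rw [e, hNN, h3]
    simp only [zero_smul, zero_mul, mul_zero, smul_zero, add_zero, zero_sub, hNUN, smul_smul, ← neg_smul]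
    rw [show -((5 : F) * c u) = c u by linear_combination (-2 * c u) * h3]
  haveI : Finite R := Nat.finite_of_card_ne_zero (by rw [hR.card]; norm_num)
  set K := (centralizer {y}).subgroupOf R with hK
  have hKmem : ∀ u : R, u ∈ K ↔ y * (u : G4) = u * y := fun u => by
    rw [hK, mem_subgroupOf, mem_centralizer_singleton_iff, eq_comm]
  have hAmem : ∀ m, ∀ u ∈ R, A m u ∈ R := fun m => pow_mem_conj hN m
  have hdiag : ∀ v : R, v ∉ K → (c v • N * (((v : G4)⁻¹ : G4) : M4)).trace = 4 := by
    intro v hv
    have hne : y * (v : G4) ≠ v * y := fun h => hv ((hKmem v).2 h)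
    rw [← hsum, add_mul, add_mul, Matrix.trace_add, Matrix.trace_add, ← Units.val_mul, ← Units.val_mul, ← Units.val_mul,
      commutator_trace hR h2 hN v.2 Nat.prime_three (by norm_num) hy hne (m := 1) (by norm_num),
      commutator_trace hR h2 hN v.2 Nat.prime_three (by norm_num) hy hne (m := 2) (by norm_num), add_zero, add_zero]
    simp [A, trace_one_four]
  have h4 : (4 : F) ≠ 0 := by rw [show (4 : F) = 2 * 2 by norm_num]; exact mul_ne_zero h2 h2
  have horb : ∀ u v : R, u ∉ K → v ∉ K → ∃ (m : Fin 3) (e : Bool),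
      (v : G4) = if e then A m u else -(A m u) := by
    intro u v hu hv
    have hu' := hdiag u hu
    have hv' := hdiag v hv
    rw [Matrix.smul_mul, Matrix.trace_smul, smul_eq_mul] at hu' hv'
    have hne : (c u • N * (((v : G4)⁻¹ : G4) : M4)).trace ≠ 0 := by
      rw [Matrix.smul_mul, Matrix.trace_smul, smul_eq_mul]
      exact mul_ne_zero (fun h => h4 (by rw [← hu', h, zero_mul])) fun h => h4 (by rw [← hv', h, mul_zero])
    by_contra hno
    push Not at hno
    apply hne
    rw [← hsum, add_mul, add_mul, Matrix.trace_add, Matrix.trace_add, ← Units.val_mul, ← Units.val_mul, ← Units.val_mul]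
    have z : ∀ m : Fin 3, ((A m u * (v : G4)⁻¹ : G4) : M4).trace = 0 := fun m =>
      trace_eq_zero hR h2 (R.mul_mem (hAmem m u u.2) (R.inv_mem v.2))
        (fun hd => hno m true (by simpa using (mul_inv_eq_one.1 hd).symm))
        (fun hd => hno m false (by
          have e := mul_inv_eq_iff_eq_mul.1 hd
          rw [neg_one_mul] at e
          rw [if_neg Bool.false_ne_true, e, neg_neg]))
    have z0 := z 0; have z1 := z 1; have z2 := z 2
    simp only [Fin.val_zero, Fin.val_one, Fin.val_two] at z0 z1 z2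
    rw [z0, z1, z2, add_zero, add_zero]
  rcases scalar_or_le hR y with h | ⟨h16, -⟩
  · exact h
  exfalso
  rw [← hK] at h16
  obtain ⟨u, hu⟩ : ∃ u : R, u ∉ K := by
    by_contra hall
    push Not at hall
    have := Nat.card_le_card_of_injective (fun v : R => (⟨v, hall v⟩ : K)) fun a b h => congrArg Subtype.val h
    have := Nat.le_of_dvd (by norm_num) h16
    rw [hR.card] at *
    omega
  choose m d hmd using fun v : {v : R // v ∉ K} => horb u v.1 hu v.2
  have hinj : Function.Injective fun v => (m v, d v) := fun v w h => by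
    refine Subtype.ext (Subtype.ext ?_)
    rw [hmd v, hmd w, show m v = m w from congrArg Prod.fst h, show d v = d w from congrArg Prod.snd h]
  have h6 : Nat.card {v : R // v ∉ K} ≤ 6 := by
    refine (Nat.card_le_card_of_injective _ hinj).trans ?_
    simp
  have hsplit : Nat.card {v : R // v ∈ K} + Nat.card {v : R // v ∉ K} = 32 := by
    rw [← Nat.card_sum, Nat.card_congr (Equiv.sumCompl _), hR.card]
  have hKe : Nat.card {v : R // v ∈ K} = Nat.card K := rfl
  have := Nat.le_of_dvd (by norm_num) h16
  omega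

end CfsgLib.HeisSp
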